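import Mathlib.GroupTheory.SpecificGroups.Alternating
import Mathlib.GroupTheory.Perm.DomMulAct
import Mathlib.GroupTheory.Sylow
import Mathlib.GroupTheory.GroupAction.Jordan
import Mathlib.Combinatorics.Enumerative.Bell
import Mathlib.Data.Nat.Factorization.Basic
import Cfsg.Prelude.Def_HallClasses

/-!
Order bounds for Hall subgroups of symmetric and alternating groups.
-/

set_option autoImplicit false

namespace Cfsg.Agent.Lib.HallSym

open Equiv Equiv.Perm MulAction Nat

universe u v

variable {Ω : Type u} [Fintype Ω] [DecidableEq Ω]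

/-- The order reaches the `π`-part of `(card Ω)!`. -/
def Big (π : Set ℕ) (X : Subgroup (Perm Ω)) : Prop :=
  ∀ r ∈ π, r.Prime → (Fintype.card Ω)!.factorization r ≤ (Nat.card X).factorization r

/-- A group of even permutations whose order reaches the `π`-part of the alternating group. -/
def BigEven (π : Set ℕ) (X : Subgroup (Perm Ω)) : Prop :=
  X ≤ alternatingGroup Ω ∧
    ∀ r ∈ π, r.Prime → (Fintype.card Ω)!.factorization r ≤ (2 * Nat.card X).factorization r

/-- A Hall subgroup of the symmetric or of the alternating group. -/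
def Hallish (π : Set ℕ) (X : Subgroup (Perm Ω)) : Prop :=
  Cfsg.IsPiSubgroup π X ∧ (Big π X ∨ BigEven π X)

theorem fact_le_of_dvd {a b : ℕ} (hb : b ≠ 0) (h : a ∣ b) (r : ℕ) : a.factorization r ≤ b.factorization r := by
  rcases eq_or_ne a 0 with rfl | ha
  · simp
  · exact (Nat.factorization_le_iff_dvd ha hb).2 h r

theorem fact_mul {a b : ℕ} (ha : a ≠ 0) (hb : b ≠ 0) (r : ℕ) :
    (a * b).factorization r = a.factorization r + b.factorization r := by
  rw [Nat.factorization_mul ha hb]; rfl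

theorem mem_alt_iff {g : Perm Ω} : g ∈ alternatingGroup Ω ↔ sign g = 1 := Iff.rfl

theorem two_mul_card_dvd {X K : Subgroup (Perm Ω)} (hX : X ≤ alternatingGroup Ω) (hXK : X ≤ K)
    {g : Perm Ω} (hg : g ∈ K) (hodd : sign g = -1) : 2 * Nat.card X ∣ Nat.card K := by
  have h1 : Nat.card ↥(K ⊓ alternatingGroup Ω) * 2 = Nat.card K := by
    let ψ : K →* ℤˣ := sign.comp K.subtype
    have hk : ψ.ker = (alternatingGroup Ω).subgroupOf K := rfl
    have hsurj : Function.Surjective ψ := fun u => by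
      rcases Int.units_eq_one_or u with rfl | rfl
      · exact ⟨1, map_one _⟩
      · exact ⟨⟨g, hg⟩, hodd⟩
    have h2 : ψ.ker.index = 2 := by
      rw [Subgroup.index_ker, MonoidHom.range_eq_top.2 hsurj, Subgroup.card_top, Nat.card_eq_fintype_card,
        Fintype.card_units_int]
    have h3 := ψ.ker.card_mul_index
    rw [h2, hk] at h3
    rw [← h3, ← Subgroup.inf_subgroupOf_left, Nat.card_congr (Subgroup.subgroupOfEquivOfLe
      (inf_le_left : K ⊓ alternatingGroup Ω ≤ K)).toEquiv]
  rw [← h1, mul_comm]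
  exact Nat.mul_dvd_mul_right (Subgroup.card_dvd_of_le (le_inf hXK hX)) 2

/-- The bound given by an overgroup with an odd element. -/
theorem Hallish.bound {π : Set ℕ} {X : Subgroup (Perm Ω)} (hX : Hallish π X) {K : Subgroup (Perm Ω)}
    (hXK : X ≤ K) {g : Perm Ω} (hg : g ∈ K) (hodd : sign g = -1) {r : ℕ} (hr : r ∈ π) (hrp : r.Prime) :
    (Fintype.card Ω)!.factorization r ≤ (Nat.card K).factorization r := by
  rcases hX.2 with h | ⟨hA, h⟩
  · exact (h r hr hrp).trans (fact_le_of_dvd Nat.card_pos.ne' (Subgroup.card_dvd_of_le hXK) r)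
  · exact (h r hr hrp).trans (fact_le_of_dvd Nat.card_pos.ne' (two_mul_card_dvd hA hXK hg hodd) r)

theorem Hallish.le_odd {π : Set ℕ} {X : Subgroup (Perm Ω)} (hX : Hallish π X) {r : ℕ} (hr : r ∈ π)
    (hrp : r.Prime) (h2 : r ≠ 2) :
    (Fintype.card Ω)!.factorization r ≤ (Nat.card X).factorization r := by
  rcases hX.2 with h | ⟨-, h⟩
  · exact h r hr hrp
  · have := h r hr hrp
    rwa [fact_mul two_ne_zero Nat.card_pos.ne', Nat.Prime.factorization Nat.prime_two,
      Finsupp.single_eq_of_ne h2, zero_add] at this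

/-- Permutations preserving `f`. -/
def fixFun {ι : Type v} (f : Ω → ι) : Subgroup (Perm Ω) where
  carrier := {g | ∀ x, f (g x) = f x}
  one_mem' := fun _ => rfl
  mul_mem' := fun {g h} hg hh x => by rw [Perm.mul_apply, hg, hh]
  inv_mem' := fun {g} hg x => by rw [← hg (g⁻¹ x)]; simp

omit [Fintype Ω] [DecidableEq Ω] in
theorem mem_fixFun {ι : Type v} {f : Ω → ι} {g : Perm Ω} : g ∈ fixFun f ↔ ∀ x, f (g x) = f x := Iff.rfl

omit [DecidableEq Ω] in
theorem card_fixFun {ι : Type v} [Fintype ι] (f : Ω → ι) :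
    Nat.card (fixFun f) = ∏ i, (Nat.card {x // f x = i})! := by
  classical
  have h := DomMulAct.stabilizer_card f
  rw [← Nat.card_eq_fintype_card] at h
  simp only [← Nat.card_eq_fintype_card] at h
  rw [← h]
  exact Nat.card_congr (Equiv.subtypeEquivRight fun g => ⟨funext, congrFun⟩)

omit [Fintype Ω] in
theorem swap_mem_fixFun {ι : Type v} (f : Ω → ι) {u w : Ω} (h : f u = f w) : swap u w ∈ fixFun f :=
  fun x => by rw [swap_apply_def]; split_ifs <;> simp [*]

omit [DecidableEq Ω] in
/-- An `r`-subgroup has a conjugate in a subgroup reaching the `r`-part. -/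
theorem exists_conj_le {X : Subgroup (Perm Ω)} {r : ℕ} [hr : Fact r.Prime]
    (h : (Fintype.card Ω)!.factorization r ≤ (Nat.card X).factorization r) {Q : Subgroup (Perm Ω)}
    (hQ : IsPGroup r Q) : ∃ g : Perm Ω, Q.map (MulAut.conj g).toMonoidHom ≤ X := by
  classical
  obtain ⟨P⟩ : Nonempty (Sylow r X) := inferInstance
  have hG : Nat.card (Perm Ω) = (Fintype.card Ω)! := by rw [Nat.card_perm, Nat.card_eq_fintype_card]
  have hP : Nat.card ↥((P : Subgroup X).map X.subtype) = r ^ (Nat.card (Perm Ω)).factorization r := by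
    rw [Subgroup.card_map_of_injective X.subtype_injective, P.card_eq_multiplicity, hG]
    congr 1
    exact le_antisymm (hG ▸ fact_le_of_dvd Nat.card_pos.ne' X.card_subgroup_dvd_card r) h
  let S : Sylow r (Perm Ω) := Sylow.ofCard _ hP
  obtain ⟨S', hS'⟩ := hQ.exists_le_sylow
  obtain ⟨g, hg⟩ := MulAction.exists_smul_eq (Perm Ω) S' S
  refine ⟨g, ?_⟩
  refine le_trans (Subgroup.map_mono hS') ?_
  have e : (S' : Subgroup (Perm Ω)).map (MulAut.conj g).toMonoidHom = (S : Subgroup (Perm Ω)) := by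
    rw [← hg, Sylow.coe_subgroup_smul]; rfl
  rw [e]
  show ((P : Subgroup X).map X.subtype : Subgroup (Perm Ω)) ≤ X
  exact Subgroup.map_subtype_le _

theorem exists_cycle {p : ℕ} (h2 : 2 ≤ p) (hp : p ≤ Fintype.card Ω) :
    ∃ c : Perm Ω, c.IsCycle ∧ c.support.card = p := by
  obtain ⟨s, -, hs⟩ := Finset.exists_subset_card_eq (s := (Finset.univ : Finset Ω)) (n := p) (by simpa using hp)
  refine ⟨s.toList.formPerm, List.isCycle_formPerm s.nodup_toList (by simp [hs, h2]), ?_⟩
  rw [List.support_formPerm_of_nodup _ s.nodup_toList (fun x hx => by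
    have := congrArg List.length hx
    simp [hs] at this
    omega)]
  simp [hs]

/-- Existence of a cycle of prime length. -/
theorem exists_cycle_mem {X : Subgroup (Perm Ω)} {r : ℕ} [hr : Fact r.Prime]
    (h : (Fintype.card Ω)!.factorization r ≤ (Nat.card X).factorization r) (hrk : r ≤ Fintype.card Ω) :
    ∃ c ∈ X, c.IsCycle ∧ c.support.card = r := by
  obtain ⟨c, hc, hcs⟩ := exists_cycle hr.out.two_le hrk
  obtain ⟨g, hg⟩ := exists_conj_le h (Q := Subgroup.zpowers c) (IsPGroup.of_card (n := 1) (by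
    rw [Nat.card_zpowers, hc.orderOf, hcs, pow_one]))
  refine ⟨g * c * g⁻¹, hg ⟨c, Subgroup.mem_zpowers c, rfl⟩, hc.conj, ?_⟩
  rw [Equiv.Perm.card_support_conj, hcs]

omit [DecidableEq Ω] in
theorem prime_le_of_dvd {X : Subgroup (Perm Ω)} {p : ℕ} (hp : p.Prime) (h : p ∣ Nat.card X) :
    p ≤ Fintype.card Ω := by
  classical
  refine (Nat.Prime.dvd_factorial hp).1 (h.trans ?_)
  have := X.card_subgroup_dvd_card
  rwa [Nat.card_perm, Nat.card_eq_fintype_card (α := Ω)] at this

theorem one_le_fact_of_le {n p : ℕ} (hp : p.Prime) (h : p ≤ n) : 1 ≤ (Nat.factorial n).factorization p :=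
  (hp.dvd_iff_one_le_factorization n.factorial_ne_zero).1 (hp.dvd_factorial.2 h)

omit [DecidableEq Ω] in
theorem dvd_of_fact {X : Subgroup (Perm Ω)} {p : ℕ} (hp : p.Prime)
    (h : 1 ≤ (Nat.card X).factorization p) : p ∣ Nat.card X :=
  Nat.dvd_of_factorization_pos (by omega)

end Cfsg.Agent.Lib.HallSym
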