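import Cfsg.Agent.Lib.HallSym.Primitive
import Cfsg.Agent.Lib.PartitionStab
import Mathlib.Data.Nat.Choose.Lucas

/-!
Imprimitive Hall subgroups of symmetric and alternating groups.
-/

set_option autoImplicit false

namespace Cfsg.Agent.Lib.HallSym

open Equiv Equiv.Perm MulAction
open scoped Nat Pointwise

universe u

/-- The possible shapes of a Hall subgroup for at least two primes. -/
def Shape {Ω : Type u} [Fintype Ω] [DecidableEq Ω] (π : Set ℕ) (X : Subgroup (Perm Ω)) : Prop :=
  (∀ p : ℕ, p.Prime → p ≤ Fintype.card Ω → p ∈ π) ∨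
  ((Fintype.card Ω).Prime ∧
    (∀ p : ℕ, p.Prime → p ≤ Fintype.card Ω → (p ∈ π ↔ p < Fintype.card Ω)) ∧
    ∃ a : Ω, ∀ g ∈ X, g a = a) ∨
  (Fintype.card Ω = 7 ∧ (∀ p : ℕ, p.Prime → p ≤ Fintype.card Ω → (p ∈ π ↔ p = 2 ∨ p = 3)) ∧
    ∃ D : Finset Ω, D.card = 4 ∧ ∀ g ∈ X, ∀ x, (g x ∈ D ↔ x ∈ D)) ∨
  (Fintype.card Ω = 8 ∧ (∀ p : ℕ, p.Prime → p ≤ Fintype.card Ω → (p ∈ π ↔ p = 2 ∨ p = 3)) ∧
    IsPretransitive X Ω ∧
    ∃ f : Ω → Fin 2, (∀ i, Nat.card {x // f x = i} = 4) ∧ X ≤ PartitionStab.K f)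

/-- The digit sum. -/
def dsum (r n : ℕ) : ℕ := (Nat.digits r n).sum

theorem dsum_le_self (r n : ℕ) : dsum r n ≤ n := Nat.digit_sum_le r n

theorem dsum_step {r : ℕ} (hr : 2 ≤ r) (n : ℕ) : dsum r n = n % r + dsum r (n / r) := by
  rcases Nat.eq_zero_or_pos n with rfl | hn
  · simp [dsum]
  · simp [dsum, Nat.digits_def' (show 1 < r by omega) hn]

theorem dsum_mul_base {r : ℕ} (hr : 2 ≤ r) (m : ℕ) : dsum r (r * m) = dsum r m := by
  rw [dsum_step hr, Nat.mul_mod_right, Nat.mul_div_cancel_left _ (by omega), zero_add]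

theorem fact_dsum {r : ℕ} [hr : Fact r.Prime] (n : ℕ) :
    (r - 1) * (n !).factorization r + dsum r n = n := by
  rw [Nat.factorization_def _ hr.out, sub_one_mul_padicValNat_factorial]
  exact Nat.sub_add_cancel (Nat.digit_sum_le r n)

theorem dsum_add {r : ℕ} [hr : Fact r.Prime] (x y : ℕ) : dsum r (x + y) ≤ dsum r x + dsum r y := by
  have h1 := fact_dsum (r := r) (x + y)
  have h2 := fact_dsum (r := r) x
  have h3 := fact_dsum (r := r) y
  have h4 : (x !).factorization r + (y !).factorization r ≤ ((x + y)!).factorization r := by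
    rw [← fact_mul (Nat.factorial_ne_zero _) (Nat.factorial_ne_zero _)]
    exact fact_le_of_dvd (Nat.factorial_ne_zero _) (Nat.factorial_mul_factorial_dvd_factorial_add x y) r
  have h5 := Nat.mul_le_mul_left (r - 1) h4
  rw [Nat.mul_add] at h5
  omega

theorem dsum_mul {r : ℕ} [hr : Fact r.Prime] (a b : ℕ) : dsum r (a * b) ≤ dsum r a * dsum r b := by
  have h2 := hr.out.two_le
  induction b using Nat.strong_induction_on with
  | _ b ih =>
    rcases Nat.eq_zero_or_pos b with rfl | hb
    · simp [dsum]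
    have hsmall : ∀ d, dsum r (a * d) ≤ d * dsum r a := fun d => by
      induction d with
      | zero => simp [dsum]
      | succ d ihd =>
        rw [Nat.mul_succ, Nat.succ_mul]
        exact (dsum_add _ _).trans (by omega)
    have e : a * b = a * (b % r) + r * (a * (b / r)) := by
      conv_lhs => rw [← Nat.mod_add_div b r]
      ring
    rw [e, dsum_step h2 b, Nat.mul_add]
    refine (dsum_add _ _).trans ?_
    rw [dsum_mul_base h2]
    have h3 := ih (b / r) (Nat.div_lt_self hb (by omega))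
    have h4 := hsmall (b % r)
    rw [mul_comm (b % r)] at h4
    omega

theorem pow_of_dsum_one {r : ℕ} (hr : 2 ≤ r) (a : ℕ) (h : dsum r a = 1) : ∃ i, a = r ^ i := by
  induction a using Nat.strong_induction_on with
  | _ a ih =>
    rcases Nat.eq_zero_or_pos a with rfl | ha
    · simp [dsum] at h
    rw [dsum_step hr] at h
    by_cases hd : a / r = 0
    · refine ⟨0, ?_⟩
      rw [hd] at h
      simp [dsum] at h
      rw [Nat.div_eq_zero_iff] at hd
      rw [Nat.mod_eq_of_lt (by omega)] at h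
      rw [pow_zero, h]
    · have h1 : 1 ≤ dsum r (a / r) := by
        by_contra hlt
        have h0 : (Nat.digits r (a / r)).sum = 0 := by
          have : dsum r (a / r) = 0 := by omega
          exact this
        refine hd ?_
        by_contra hne
        have hne' := (Nat.digits_ne_nil_iff_ne_zero (b := r)).2 hne
        have := Nat.getLast_digit_ne_zero r hne
        exact this (List.sum_eq_zero_iff.1 h0 _ (List.getLast_mem hne'))
      obtain ⟨i, hi⟩ := ih (a / r) (Nat.div_lt_self ha (by omega)) (by omega)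
      refine ⟨i + 1, ?_⟩
      rw [pow_succ', ← hi]
      conv_lhs => rw [← Nat.mod_add_div a r]
      omega

/-- The multinomial condition on `b` blocks of size `a`. -/
theorem pow_or_lt {r a b : ℕ} [hr : Fact r.Prime] (ha : 0 < a)
    (h : ((b * a)!).factorization r ≤ b * (a !).factorization r + (b !).factorization r) :
    (∃ i, a = r ^ i) ∨ b < r := by
  by_contra hc
  push Not at hc
  obtain ⟨hpow, hb⟩ := hc
  have h2 := hr.out.two_le
  have hx : 2 ≤ dsum r a := by
    have h0 : dsum r a ≠ 1 := fun e => by obtain ⟨i, hi⟩ := pow_of_dsum_one h2 a e; exact hpow i hi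
    have h1 : dsum r a ≠ 0 := fun e => by
      have hne := (Nat.digits_ne_nil_iff_ne_zero (b := r)).2 ha.ne'
      exact Nat.getLast_digit_ne_zero r ha.ne' (List.sum_eq_zero_iff.1 e _ (List.getLast_mem hne))
    omega
  have hy : dsum r b < b := by
    rw [dsum_step h2]
    have h1 := dsum_le_self r (b / r)
    have h3 := Nat.mod_add_div b r
    have h4 : 1 ≤ b / r := Nat.div_pos hb (by omega)
    nlinarith
  have e1 := fact_dsum (r := r) (b * a)
  have e2 := fact_dsum (r := r) a
  have e3 := fact_dsum (r := r) b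
  have e4 := dsum_mul (r := r) a b
  rw [mul_comm a b] at e4
  have h5 := Nat.mul_le_mul_left (r - 1) h
  rw [Nat.mul_add, mul_left_comm] at h5
  nlinarith

theorem dvd_centralBinom {p a : ℕ} [hp : Fact p.Prime] (hp2 : p ≠ 2) (h : p ≤ 2 * (a % p)) :
    p ∣ (2 * a).choose a := by
  have h1 := Choose.choose_modEq_choose_mod_mul_choose_div_nat (p := p) (n := 2 * a) (k := a)
  have h2 : (2 * a % p).choose (a % p) = 0 := by
    refine Nat.choose_eq_zero_of_lt ?_
    have h2p : 2 < p := by have := hp.out.two_le; omega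
    have := Nat.mod_lt a hp.out.pos
    rw [Nat.mul_mod, Nat.mod_eq_of_lt h2p, Nat.mod_eq_sub_mod h, Nat.mod_eq_of_lt (by omega)]
    omega
  rw [h2, zero_mul] at h1
  exact Nat.modEq_zero_iff_dvd.1 h1

theorem exists_bad_prime {e : ℕ} (he : 5 ≤ e) :
    ∃ p, p.Prime ∧ p ≠ 2 ∧ p ≤ 2 ^ e ∧ p ≤ 2 * (2 ^ e % p) := by
  obtain ⟨m, rfl⟩ : ∃ m, e = m + 1 := ⟨e - 1, by omega⟩
  set N := 2 ^ m + 1 with hN
  obtain ⟨c, hc⟩ : 16 ∣ 2 ^ m := (pow_dvd_pow 2 (show 4 ≤ m by omega) : 2 ^ 4 ∣ 2 ^ m)
  obtain ⟨p, hp, hpN, hp3⟩ : ∃ p, p.Prime ∧ p ∣ N ∧ p ≠ 3 := by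
    by_contra hall
    push Not at hall
    obtain ⟨j, hj⟩ : ∃ j, N = 3 ^ j :=
      ⟨N.factorization 3, Nat.eq_of_factorization_eq (by omega) (by positivity) fun q => by
        rw [Nat.Prime.factorization_pow Nat.prime_three, Finsupp.single_apply]
        split_ifs with h
        · rw [h]
        · by_contra hne
          have hq : q.Prime := by
            by_contra hnp; exact hne (Nat.factorization_eq_zero_of_not_prime _ hnp)
          exact h (hall q hq (Nat.dvd_of_factorization_pos hne)).symm⟩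
    have h16 : 3 ^ j % 16 = 1 := by rw [← hj]; omega
    obtain ⟨i, hi⟩ : 4 ∣ j := by
      rw [← Nat.mod_add_div j 4, pow_add, pow_mul, Nat.mul_mod, Nat.pow_mod (3 ^ 4)] at h16
      norm_num at h16
      have := Nat.mod_lt j (show 4 > 0 by norm_num)
      refine Nat.dvd_of_mod_eq_zero ?_
      interval_cases j % 4 <;> first | rfl | norm_num at h16
    have h5 : N % 5 = 1 := by
      rw [hj, hi, pow_mul, Nat.pow_mod]; norm_num
    have h50 : 5 ∣ 2 ^ m := Nat.dvd_of_mod_eq_zero (by omega)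
    exact absurd ((Nat.prime_dvd_prime_iff_eq Nat.prime_five Nat.prime_two).1
      (Nat.prime_five.dvd_of_dvd_pow h50)) (by norm_num)
  have hp2 : p ≠ 2 := by rintro rfl; omega
  have hp5 : 5 ≤ p := by
    have := hp.two_le
    have : p ≠ 4 := fun h => by subst h; norm_num at hp
    omega
  refine ⟨p, hp, hp2, ?_, ?_⟩
  · have := Nat.le_of_dvd (by omega) hpN
    rw [pow_succ]; omega
  · obtain ⟨q, hq⟩ := hpN
    have h1 : 2 ^ (m + 1) = (p - 2) + p * (2 * q - 1) := by
      have hq1 : 1 ≤ q := by rcases Nat.eq_zero_or_pos q with rfl | h <;> omega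
      rw [Nat.mul_sub, mul_one, pow_succ, show p * (2 * q) = 2 * (p * q) by ring]
      have : p * 1 ≤ p * q := Nat.mul_le_mul_left p hq1
      omega
    rw [h1, Nat.add_mul_mod_self_left, Nat.mod_eq_of_lt (by omega)]
    omega

variable {Ω : Type u} [Fintype Ω] [DecidableEq Ω]

omit [Fintype Ω] [DecidableEq Ω] in
/-- The action on the fibres. -/
noncomputable def fibreHom {ι : Type u} {f : Ω → ι} (hf : Function.Surjective f) :
    PartitionStab.K f →* Perm ι :=
  letI : MulAction (PartitionStab.K f) ι :=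
    { smul := fun g i => f (g.1 (Function.surjInv hf i))
      one_smul := fun i => Function.surjInv_eq hf i
      mul_smul := fun g h i =>
        (g.2 _ _).1 (Function.surjInv_eq hf (f (h.1 (Function.surjInv hf i)))).symm }
  MulAction.toPermHom (PartitionStab.K f) ι

theorem fibreHom_apply {ι : Type u} {f : Ω → ι} (hf : Function.Surjective f) (g : PartitionStab.K f) (x : Ω) :
    fibreHom hf g (f x) = f (g.1 x) :=
  (g.2 _ _).1 (Function.surjInv_eq hf (f x))

theorem card_dvd_of_fibres {ι : Type u} [Fintype ι] {f : Ω → ι} (hf : Function.Surjective f)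
    {L : Subgroup (Perm Ω)} (hL : L ≤ PartitionStab.K f) {κ : Type u} [Fintype κ] {f' : Ω → κ}
    (hker : ∀ g ∈ L, (∀ x, f (g x) = f x) → g ∈ fixFun f') {R : Subgroup (Perm ι)}
    (hR : ∀ g : PartitionStab.K f, g.1 ∈ L → fibreHom hf g ∈ R) :
    Nat.card L ∣ Nat.card R * ∏ i, (Nat.card {x // f' x = i})! := by
  classical
  let ψ : L →* Perm ι := (fibreHom hf).comp (Subgroup.inclusion hL)
  rw [← Subgroup.card_mul_index ψ.ker, Subgroup.index_ker, mul_comm]
  refine Nat.mul_dvd_mul (Subgroup.card_dvd_of_le ?_) ?_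
  · rintro _ ⟨g, rfl⟩; exact hR _ g.2
  · rw [← card_fixFun f']
    refine dvd_trans ?_ (Subgroup.card_dvd_of_le (H := ψ.ker.map L.subtype) ?_)
    · rw [Subgroup.card_map_of_injective L.subtype_injective]
    · rintro _ ⟨g, hg, rfl⟩
      refine hker g.1 g.2 fun x => ?_
      exact (fibreHom_apply hf (Subgroup.inclusion hL g) x).symm.trans (Equiv.congr_fun hg (f x))

/-- Restriction of a setwise stabiliser. -/
def resHom {p : Ω → Prop} {S : Subgroup (Perm Ω)} (h : ∀ g ∈ S, ∀ x, p (g x) ↔ p x) :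
    S →* Perm {x // p x} where
  toFun g := g.1.subtypePerm (h g.1 g.2)
  map_one' := by ext; rfl
  map_mul' g g' := by ext; rfl

/-- The imprimitive case. -/
theorem imprimitive {π : Set ℕ} {X : Subgroup (Perm Ω)} (hX : Hallish π X) (htr : IsPretransitive X Ω)
    (hnp : ¬ IsPreprimitive X Ω)
    (h2 : ∃ r s : ℕ, r.Prime ∧ s.Prime ∧ r ≠ s ∧ r ∈ π ∧ s ∈ π ∧ r ≤ Fintype.card Ω ∧ s ≤ Fintype.card Ω)
    (IH : ∀ (α : Type u) [Fintype α] [DecidableEq α] (Y : Subgroup (Perm α)),
      Fintype.card α < Fintype.card Ω → Hallish π Y →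
      (∃ r s : ℕ, r.Prime ∧ s.Prime ∧ r ≠ s ∧ r ∈ π ∧ s ∈ π ∧ r ≤ Fintype.card α ∧ s ≤ Fintype.card α) →
      Shape π Y) :
    Shape π X := by
  classical
  obtain ⟨B, hB, hBnt⟩ : ∃ B : Set Ω, IsBlock X B ∧ ¬ IsTrivialBlock B := by
    by_contra hall
    push Not at hall
    exact hnp { isTrivialBlock_of_isBlock := fun {B} hB => hall B hB }
  simp only [IsTrivialBlock, not_or] at hBnt
  obtain ⟨hBs, hBu⟩ := hBnt
  obtain ⟨x₀, hx₀⟩ : B.Nonempty := Set.nonempty_iff_ne_empty.2 fun e => hBs (e ▸ Set.subsingleton_empty)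
  let ι := ↥(orbit X B)
  haveI : Fintype ι := Fintype.ofFinite ι
  choose gx hgx using fun x : Ω => MulAction.exists_smul_eq X x₀ x
  let f : Ω → ι := fun x => ⟨gx x • B, mem_orbit _ _⟩
  have hmemf : ∀ x, x ∈ (f x).1 := fun x => ⟨x₀, hx₀, hgx x⟩
  have huniq : ∀ (i : ι) x, x ∈ i.1 → f x = i := by
    rintro ⟨_, g, rfl⟩ x hx
    refine Subtype.ext ?_
    rcases (isBlock_iff_smul_eq_smul_or_disjoint.1 hB) (gx x) g with h | h
    · exact h
    · exact absurd hx (Set.disjoint_left.1 h (hmemf x))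
  have hiff : ∀ (i : ι) x, f x = i ↔ x ∈ i.1 := fun i x => ⟨fun h => h ▸ hmemf x, huniq i x⟩
  have hact : ∀ (g : X) (i : ι), ∀ x, f x = i → f (g • x) = ⟨g • i.1, by
      obtain ⟨h, hh⟩ := i.2; exact ⟨g * h, by rw [← hh]; exact mul_smul g h B⟩⟩ := fun g i x hx =>
    huniq _ _ (Set.smul_mem_smul_set ((hiff i x).1 hx))
  have hXK : X ≤ PartitionStab.K f := fun g hg x y => by
    constructor
    · intro h
      have h1 := hact ⟨g, hg⟩ (f x) x rfl
      have h2 := hact ⟨g, hg⟩ (f x) y h.symm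
      exact h1.trans h2.symm
    · intro h
      have h1 := hact ⟨g, hg⟩⁻¹ (f (g x)) (g x) rfl
      have h2 := hact ⟨g, hg⟩⁻¹ (f (g x)) (g y) h.symm
      have e : ∀ z : Ω, (⟨g, hg⟩ : X)⁻¹ • g z = z := fun z => by
        show g⁻¹ (g z) = z; simp
      rw [e] at h1 h2
      exact h1.trans h2.symm
  have hsurj : Function.Surjective f := fun i => by
    obtain ⟨g, hg⟩ := i.2
    exact ⟨g • x₀, huniq i _ (hg ▸ Set.smul_mem_smul_set hx₀)⟩
  set a := B.ncard with ha
  set b := Fintype.card ι with hb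
  have hfib : ∀ i, Nat.card {x // f x = i} = a := fun i => by
    rw [Nat.card_congr (Equiv.subtypeEquivRight (hiff i)), Nat.card_coe_set_eq]
    obtain ⟨g, hg⟩ := i.2
    rw [← hg, ha]; exact Set.ncard_smul_set g B
  have hk : Fintype.card Ω = b * a := by
    rw [← Nat.card_eq_fintype_card, ← hB.ncard_block_mul_ncard_orbit_eq ⟨x₀, hx₀⟩, mul_comm, hb,
      ← Nat.card_eq_fintype_card, Nat.card_coe_set_eq]
  have ha2 : 2 ≤ a := by
    by_contra hlt
    exact hBs (Set.ncard_le_one_iff_subsingleton.1 (by omega))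
  have hb2 : 2 ≤ b := by
    by_contra hlt
    have hb0 : b ≠ 0 := fun e => by
      rw [e, zero_mul] at hk
      haveI : Nonempty Ω := ⟨x₀⟩
      exact Fintype.card_ne_zero hk
    rw [show b = 1 by omega, one_mul, ← Nat.card_eq_fintype_card, ha] at hk
    exact hBu ((Set.eq_univ_iff_ncard B).2 hk.symm)
  obtain ⟨u, w, huw, hfuw⟩ : ∃ u w : Ω, u ≠ w ∧ f u = f w := by
    obtain ⟨y, hy, hyx⟩ := Set.exists_ne_of_one_lt_ncard (show 1 < B.ncard by omega) x₀
    have hB' : (⟨B, mem_orbit_self B⟩ : ι).1 = B := rfl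
    exact ⟨y, x₀, hyx, (huniq ⟨B, mem_orbit_self B⟩ y hy).trans (huniq ⟨B, mem_orbit_self B⟩ x₀ hx₀).symm⟩
  have hprod : ∀ (j : ι → ℕ), (∀ i, j i = a) → ∏ i, (j i)! = a ! ^ b := fun j hj => by
    simp only [hj, Finset.prod_const, Finset.card_univ, hb]
  have hE1 : ∀ r ∈ π, r.Prime →
      ((b * a)!).factorization r ≤ b * (a !).factorization r + (b !).factorization r := by
    intro r hr hrp
    have h1 := hX.bound hXK (PartitionStab.swap_mem_K f hfuw) (sign_swap huw) hr hrp
    rw [hk] at h1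
    refine h1.trans ((fact_le_of_dvd (b := b ! * a ! ^ b) (by positivity) ?_ r).trans (le_of_eq ?_))
    · have := card_dvd_of_fibres hsurj (L := PartitionStab.K f) le_rfl (f' := f) (fun g _ h => h)
        (R := ⊤) fun g _ => Subgroup.mem_top _
      rwa [Subgroup.card_top, Nat.card_perm, Nat.card_eq_fintype_card (α := ι), hprod _ hfib] at this
    · rw [fact_mul (Nat.factorial_ne_zero _) (pow_ne_zero _ (Nat.factorial_ne_zero _)),
        Nat.factorization_pow]
      simp only [Finsupp.smul_apply, smul_eq_mul]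
      ring
  have hle : ∀ r ∈ π, r.Prime → r ≤ Fintype.card Ω → r ≤ a := by
    intro r hr hrp hrk
    haveI := Fact.mk hrp
    rcases pow_or_lt (by omega) (hE1 r hr hrp) with ⟨i, hi⟩ | hlt
    · rcases Nat.eq_zero_or_pos i with rfl | hi0
      · simp at hi; omega
      · rw [hi]; exact Nat.le_self_pow hi0.ne' r
    · by_contra hgt
      have h1 := hE1 r hr hrp
      rw [Nat.factorization_eq_zero_of_not_dvd (n := a !) (fun h => hgt (hrp.dvd_factorial.1 h)),
        Nat.factorization_eq_zero_of_not_dvd (n := b !) (fun h => by have := hrp.dvd_factorial.1 h; omega)] at h1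
      have := one_le_fact_of_le hrp (hk ▸ hrk)
      omega
  -- the group induced on a block
  let i₀ : ι := f x₀
  let XB : Subgroup (Perm Ω) :=
    { carrier := {g | g ∈ X ∧ ∀ x, f (g x) = i₀ ↔ f x = i₀}
      one_mem' := ⟨one_mem X, fun _ => Iff.rfl⟩
      mul_mem' := fun {g h} hg hh => ⟨mul_mem hg.1 hh.1, fun x => (hg.2 (h x)).trans (hh.2 x)⟩
      inv_mem' := fun {g} hg => ⟨inv_mem hg.1, fun x => by rw [← hg.2 (g⁻¹ x)]; simp⟩ }
  let Y : Subgroup (Perm {x // f x = i₀}) := (resHom (p := fun x => f x = i₀) (S := XB) fun g hg => hg.2).range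
  have hpiY : Cfsg.IsPiSubgroup π Y := fun p hp hpd =>
    hX.1 p hp (hpd.trans ((Subgroup.card_range_dvd _).trans (Subgroup.card_dvd_of_le fun g hg => hg.1)))
  haveI hYtr : IsPretransitive Y {x // f x = i₀} := by
    refine ⟨fun x y => ?_⟩
    obtain ⟨g, hg⟩ := MulAction.exists_smul_eq X x.1 y.1
    have hg' : g.1 ∈ XB := ⟨g.2, fun z => by
      have h1 := fibreHom_apply hsurj ⟨g.1, hXK g.2⟩
      constructor
      · intro hz
        refine (fibreHom hsurj ⟨g.1, hXK g.2⟩).injective ?_
        rw [h1, hz, show i₀ = f x.1 from x.2.symm, h1, show g.1 x.1 = y.1 from hg, y.2, x.2]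
      · intro hz
        rw [← h1, hz, show i₀ = f x.1 from x.2.symm, h1, show g.1 x.1 = y.1 from hg, y.2, x.2]⟩
    exact ⟨⟨_, ⟨g.1, hg'⟩, rfl⟩, Subtype.ext hg⟩
  have hbig : Big π Y := by
    intro r hr hrp
    haveI := Fact.mk hrp
    have hca : Fintype.card {x // f x = i₀} = a := by rw [← Nat.card_eq_fintype_card, hfib]
    rw [hca]
    -- the stabiliser of a block has index `b`
    have hidx : Nat.card X = b * Nat.card XB := by
      let ψ : X →* Perm ι := (fibreHom hsurj).comp (Subgroup.inclusion hXK)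
      letI : MulAction X ι := MulAction.compHom ι ψ
      haveI : IsPretransitive X ι := ⟨fun i j => by
        obtain ⟨x, rfl⟩ := hsurj i
        obtain ⟨y, rfl⟩ := hsurj j
        obtain ⟨g, hg⟩ := MulAction.exists_smul_eq X x y
        exact ⟨g, (fibreHom_apply hsurj (Subgroup.inclusion hXK g) x).trans (congrArg f hg)⟩⟩
      rw [← Subgroup.index_mul_card (stabilizer X i₀), index_stabilizer_of_transitive,
        Nat.card_eq_fintype_card]
      congr 1
      refine Nat.card_congr
        { toFun := fun g => ⟨g.1.1, g.1.2, fun x => ?_⟩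
          invFun := fun g => ⟨⟨g.1, g.2.1⟩, ?_⟩
          left_inv := fun _ => rfl
          right_inv := fun _ => rfl }
      · have h1 := fibreHom_apply hsurj (Subgroup.inclusion hXK g.1)
        have h3 : fibreHom hsurj (Subgroup.inclusion hXK g.1) i₀ = i₀ := g.2
        show f (g.1.1 x) = i₀ ↔ f x = i₀
        rw [← show fibreHom hsurj (Subgroup.inclusion hXK g.1) (f x) = f (g.1.1 x) from h1 x]
        exact ⟨fun h => (fibreHom hsurj _).injective (h.trans h3.symm), fun h => h.symm ▸ h3⟩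
      · show fibreHom hsurj (Subgroup.inclusion hXK ⟨g.1, g.2.1⟩) (f x₀) = f x₀
        rw [fibreHom_apply]
        exact (g.2.2 x₀).2 rfl
    let L : Subgroup (Perm Ω) :=
      { carrier := {g | g ∈ PartitionStab.K f ∧ ∀ x, f x = i₀ → g x = x}
        one_mem' := ⟨one_mem _, fun _ _ => rfl⟩
        mul_mem' := fun {g h} hg hh => ⟨mul_mem hg.1 hh.1, fun x hx => by rw [Perm.mul_apply, hh.2 x hx, hg.2 x hx]⟩
        inv_mem' := fun {g} hg => ⟨inv_mem hg.1, fun x hx => by
          conv_lhs => rw [← hg.2 x hx]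
          simp⟩ }
    have hL : Nat.card L ∣ (b - 1)! * a ! ^ (b - 1) := by
      have h1 := card_dvd_of_fibres hsurj (L := L) (fun g hg => hg.1)
        (f' := fun x => if f x = i₀ then (Sum.inl x : Ω ⊕ ι) else Sum.inr (f x))
        (fun g hg hfix x => by
          show (if f (g x) = i₀ then (Sum.inl (g x) : Ω ⊕ ι) else Sum.inr (f (g x))) = _
          simp only [hfix x]
          split_ifs with hx
          · rw [hg.2 x hx]
          · rfl)
        (R := stabilizer (Perm ι) i₀) fun g hg => by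
          show fibreHom hsurj g (f x₀) = f x₀
          rw [fibreHom_apply, hg.2 x₀ rfl]
      have hst : Nat.card (stabilizer (Perm ι) i₀) = (b - 1)! := by
        have h2 := Subgroup.index_mul_card (stabilizer (Perm ι) i₀)
        rw [index_stabilizer_of_transitive, Nat.card_eq_fintype_card (α := ι), Nat.card_perm,
          Nat.card_eq_fintype_card (α := ι), ← hb, ← Nat.mul_factorial_pred (show b ≠ 0 by omega)] at h2
        exact Nat.eq_of_mul_eq_mul_left (by omega) h2
      rw [hst] at h1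
      refine h1.trans (Nat.mul_dvd_mul_left _ (dvd_of_eq ?_))
      rw [Fintype.prod_sum_type, Finset.prod_eq_one fun z _ => ?_, one_mul,
        ← Finset.prod_erase_mul _ _ (Finset.mem_univ i₀)]
      · rw [Finset.prod_congr rfl (g := fun _ => a !) fun i hi => ?_, Finset.prod_const,
          Finset.card_erase_of_mem (Finset.mem_univ _), Finset.card_univ, ← hb]
        · convert mul_one (a ! ^ (b - 1))
          rw [Nat.factorial_eq_one]
          refine le_of_eq_of_le (Nat.card_eq_zero.2 (Or.inl ⟨fun z => ?_⟩)) (Nat.zero_le 1)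
          have := z.2
          by_cases hz : f z.1 = i₀ <;> simp [hz] at this
        · congr 1
          rw [← hfib i]
          refine Nat.card_congr (Equiv.subtypeEquivRight fun x => ?_)
          by_cases hx : f x = i₀
          · simp [hx, Ne.symm (Finset.ne_of_mem_erase hi)]
          · simp [hx]
      · rw [Nat.factorial_eq_one]
        refine Finite.card_le_one_iff_subsingleton.2 ⟨fun x y => Subtype.ext ?_⟩
        have hx := x.2
        have hy := y.2
        by_cases h1 : f x.1 = i₀ <;> simp [h1] at hx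
        by_cases h2 : f y.1 = i₀ <;> simp [h2] at hy
        exact hx.trans hy.symm
    let ρ := resHom (p := fun x => f x = i₀) (S := XB) fun g hg => hg.2
    have hker : ρ.ker.map XB.subtype ≤ L := by
      rintro _ ⟨g, hg, rfl⟩
      exact ⟨hXK g.2.1, fun x hx => congrArg Subtype.val (Equiv.congr_fun hg ⟨x, hx⟩)⟩
    have hkc : Nat.card ↥(ρ.ker.map XB.subtype) = Nat.card ρ.ker :=
      Subgroup.card_map_of_injective XB.subtype_injective
    have hXB : Nat.card XB = Nat.card Y * Nat.card ρ.ker := by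
      rw [← Subgroup.card_mul_index ρ.ker, Subgroup.index_ker, mul_comm]
    -- a transposition in another block
    obtain ⟨z, hz⟩ : ∃ i : ι, i ≠ i₀ := Fintype.exists_ne_of_one_lt_card (by omega) i₀
    obtain ⟨u', w', hne', hu', hw'⟩ : ∃ u' w' : Ω, u' ≠ w' ∧ f u' = z ∧ f w' = z := by
      obtain ⟨p, q, hpq⟩ := @exists_pair_ne _
        (Finite.one_lt_card_iff_nontrivial.1 (show 1 < Nat.card {x // f x = z} by rw [hfib]; omega))
      exact ⟨p, q, fun h => hpq (Subtype.ext h), p.2, q.2⟩
    have hswap : swap u' w' ∈ L := ⟨PartitionStab.swap_mem_K f (hu'.trans hw'.symm), fun x hx =>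
      swap_apply_of_ne_of_ne (fun e => hz (by rw [← hu', ← e, hx])) fun e => hz (by rw [← hw', ← e, hx])⟩
    have hmain : ((b * a)!).factorization r ≤
        (b * Nat.card Y * ((b - 1)! * a ! ^ (b - 1))).factorization r := by
      have hne0 : b * Nat.card Y * ((b - 1)! * a ! ^ (b - 1)) ≠ 0 :=
        Nat.mul_ne_zero (Nat.mul_ne_zero (by omega) Nat.card_pos.ne')
          (Nat.mul_ne_zero (Nat.factorial_ne_zero _) (pow_ne_zero _ (Nat.factorial_ne_zero _)))
      rcases hX.2 with h | ⟨hA, h⟩ <;> refine (hk ▸ h r hr hrp).trans (fact_le_of_dvd hne0 ?_ r)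
      · rw [hidx, hXB, ← mul_assoc]
        exact Nat.mul_dvd_mul_left _ (((hkc.symm ▸ Subgroup.card_dvd_of_le hker : Nat.card ρ.ker ∣ Nat.card L)).trans hL)
      · rw [hidx, hXB, ← mul_assoc b, mul_left_comm, ← hkc]
        refine Nat.mul_dvd_mul_left _ ((two_mul_card_dvd ?_ hker hswap (sign_swap hne')).trans hL)
        rintro _ ⟨g, -, rfl⟩
        exact hA g.2.1
    have hlow : ((b * a)!).factorization r ≥ b * (a !).factorization r + (b !).factorization r := by
      have := fact_le_of_dvd (a := a ! ^ b * b !) (Nat.factorial_ne_zero (b * a))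
        (Dvd.intro_left (Nat.uniformBell b a) (by rw [← mul_assoc]; exact Nat.uniformBell_mul_eq b (by omega))) r
      rw [fact_mul (pow_ne_zero _ (Nat.factorial_ne_zero _)) (Nat.factorial_ne_zero _),
        Nat.factorization_pow] at this
      simpa using this
    rw [fact_mul (Nat.mul_ne_zero (by omega) Nat.card_pos.ne')
        (Nat.mul_ne_zero (Nat.factorial_ne_zero _) (pow_ne_zero _ (Nat.factorial_ne_zero _))),
      fact_mul (show b ≠ 0 by omega) Nat.card_pos.ne',
      fact_mul (Nat.factorial_ne_zero _) (pow_ne_zero _ (Nat.factorial_ne_zero _)),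
      Nat.factorization_pow] at hmain
    simp only [Finsupp.smul_apply, smul_eq_mul] at hmain
    have hbf : (b !).factorization r = b.factorization r + ((b - 1)!).factorization r := by
      rw [← fact_mul (show b ≠ 0 by omega) (Nat.factorial_ne_zero _), Nat.mul_factorial_pred (by omega)]
    obtain ⟨c, hc⟩ : ∃ c, b = c + 1 := ⟨b - 1, by omega⟩
    rw [hc, Nat.add_sub_cancel] at hmain
    rw [hc, Nat.add_sub_cancel] at hbf
    rw [hc] at hlow
    have hcm : (c + 1) * (a !).factorization r = c * (a !).factorization r + (a !).factorization r := by ring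
    omega
  obtain ⟨r, s, hr, hs, hrs, hrπ, hsπ, hrk, hsk⟩ := h2
  have hcard : Fintype.card {x // f x = i₀} = a := by rw [← Nat.card_eq_fintype_card, hfib]
  have hIH := IH {x // f x = i₀} Y (by rw [hcard, hk]; nlinarith) ⟨hpiY, Or.inl hbig⟩
    ⟨r, s, hr, hs, hrs, hrπ, hsπ, by rw [hcard]; exact hle r hrπ hr hrk, by rw [hcard]; exact hle s hsπ hs hsk⟩
  have ha3 : 3 ≤ a := by
    have := hle r hrπ hr hrk; have := hle s hsπ hs hsk
    have := hr.two_le; have := hs.two_le
    omega
  haveI : Nontrivial {x // f x = i₀} := Fintype.one_lt_card_iff_nontrivial.1 (by omega)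
  obtain ⟨h2π, h3π, hall⟩ : 2 ∈ π ∧ 3 ∈ π ∧ (a = 8 ∨ ∀ p : ℕ, p.Prime → p ≤ a → p ∈ π) := by
    rcases hIH with h | ⟨-, -, z, hz⟩ | ⟨h7, -, D, hD, hinv⟩ | ⟨h8, hπ, -, -⟩
    · rw [hcard] at h
      exact ⟨h 2 Nat.prime_two (by omega), h 3 Nat.prime_three ha3, Or.inr h⟩
    · exfalso
      obtain ⟨y, hy⟩ := exists_ne z
      obtain ⟨g, hg⟩ := MulAction.exists_smul_eq Y z y
      exact hy (hg.symm.trans (hz g.1 g.2))
    · exfalso
      obtain ⟨y, hy⟩ := Finset.card_pos.1 (show 0 < D.card by omega)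
      obtain ⟨y', -, hy'⟩ := Finset.exists_mem_notMem_of_card_lt_card (s := D)
        (t := Finset.univ) (by rw [Finset.card_univ]; omega)
      obtain ⟨g, hg⟩ := MulAction.exists_smul_eq Y y y'
      exact hy' (by have := (hinv g.1 g.2 y).2 hy; rwa [show g.1 y = y' from hg] at this)
    · rw [hcard] at h8 hπ
      exact ⟨(hπ 2 Nat.prime_two (by omega)).2 (Or.inl rfl), (hπ 3 Nat.prime_three (by omega)).2 (Or.inr rfl),
        Or.inl h8⟩
  haveI : Fact (Nat.Prime 2) := ⟨Nat.prime_two⟩
  haveI : Fact (Nat.Prime 3) := ⟨Nat.prime_three⟩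
  obtain ⟨e, he⟩ : ∃ i, a = 2 ^ i := (pow_or_lt (by omega) (hE1 2 h2π Nat.prime_two)).resolve_right (by omega)
  have hbtwo : b = 2 := by
    rcases pow_or_lt (by omega) (hE1 3 h3π Nat.prime_three) with ⟨i, hi⟩ | h
    · exfalso
      rcases Nat.eq_zero_or_pos i with rfl | hi0
      · simp at hi; omega
      · have h1 : 3 ∣ 2 ^ e := by rw [← he, hi]; exact dvd_pow_self 3 hi0.ne'
        exact absurd ((Nat.prime_dvd_prime_iff_eq Nat.prime_three Nat.prime_two).1
          (Nat.prime_three.dvd_of_dvd_pow h1)) (by norm_num)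
    · omega
  have hcentral : ∀ p : ℕ, p.Prime → p ≠ 2 → p ∈ π → ¬ p ∣ (2 * a).choose a := by
    intro p hp hp2 hpπ hdvd
    have h1 := hE1 p hpπ hp
    rw [hbtwo, Nat.factorization_eq_zero_of_not_dvd (n := 2 !) (fun h => hp2 (by
      have := hp.dvd_factorial.1 h; have := hp.two_le; omega))] at h1
    have h3 := Nat.choose_mul_factorial_mul_factorial (show a ≤ 2 * a by omega)
    rw [show 2 * a - a = a by omega] at h3
    rw [← h3, fact_mul (Nat.mul_ne_zero (Nat.choose_pos (by omega)).ne' (Nat.factorial_ne_zero _))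
      (Nat.factorial_ne_zero _), fact_mul (Nat.choose_pos (by omega)).ne' (Nat.factorial_ne_zero _)] at h1
    have := (hp.dvd_iff_one_le_factorization (Nat.choose_pos (show a ≤ 2 * a by omega)).ne').1 hdvd
    omega
  rcases (show e ≤ 1 ∨ e = 2 ∨ e = 3 ∨ e = 4 ∨ 5 ≤ e by omega) with h | rfl | rfl | rfl | h
  · have : 2 ^ e ≤ 2 ^ 1 := Nat.pow_le_pow_right (by norm_num) h
    omega
  · refine Or.inr (Or.inr (Or.inr ⟨by rw [hk, hbtwo, he]; norm_num, fun p hp hpk => ?_, htr, ?_⟩))
    · constructor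
      · intro hpπ
        have h4 := hle p hpπ hp hpk
        rw [he] at h4
        have := hp.two_le
        have : p ≠ 4 := fun e => by subst e; norm_num at hp
        omega
      · rintro (rfl | rfl) <;> assumption
    · let e₀ : ι ≃ Fin 2 := (Fintype.equivFinOfCardEq (hb.symm.trans hbtwo))
      refine ⟨fun x => e₀ (f x), fun i => ?_, fun g hg x y => ?_⟩
      · rw [Nat.card_congr (Equiv.subtypeEquivRight (q := fun x => f x = e₀.symm i) fun x =>
          e₀.eq_symm_apply.symm), hfib, he]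
        norm_num
      · rw [e₀.injective.eq_iff, e₀.injective.eq_iff]
        exact hXK hg x y
  · exfalso
    exact hcentral 3 Nat.prime_three (by norm_num) h3π (dvd_centralBinom (by norm_num) (by rw [he]; norm_num))
  · exfalso
    refine hcentral 3 Nat.prime_three (by norm_num) h3π ?_
    have h1 := Choose.choose_modEq_choose_mod_mul_choose_div_nat (p := 3) (n := 2 * a) (k := a)
    rw [he] at h1 ⊢
    norm_num at h1 ⊢
    exact Nat.modEq_zero_iff_dvd.1 (h1.trans (by decide))
  · exfalso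
    obtain ⟨p, hp, hp2, hpa, hmod⟩ := exists_bad_prime h
    rw [← he] at hpa hmod
    haveI := Fact.mk hp
    refine hcentral p hp hp2 ?_ (dvd_centralBinom hp2 hmod)
    rcases hall with h8 | hall
    · rw [he] at h8
      exact absurd (Nat.pow_le_pow_right (show 2 > 0 by norm_num) h) (by omega)
    · exact hall p hp hpa

end Cfsg.Agent.Lib.HallSym
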