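import Cfsg.Agent.Lib.HallSym.Main

/-!
The Hall classes of the symmetric and alternating groups.
-/

set_option autoImplicit false

namespace Cfsg.Agent.Lib.HallSym

open Equiv Equiv.Perm MulAction
open scoped Nat

universe u

/-! ### Generic facts -/

section generic

variable {G : Type u} [Group G] [Finite G] {π : Set ℕ}

theorem eq_of_hall_le {M N : Subgroup G} (hM : Cfsg.IsPiHall π M) (hN : Cfsg.IsPiSubgroup π N) (h : M ≤ N) :
    M = N := by
  refine le_antisymm h (Subgroup.relIndex_eq_one.1 ?_)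
  by_contra hne
  obtain ⟨p, hp, hpd⟩ := Nat.exists_prime_and_dvd hne
  have hpN : p ∣ Nat.card N := hpd.trans (by
    rw [← Subgroup.relIndex_bot_left N, ← Subgroup.relIndex_mul_relIndex ⊥ M N bot_le h]
    exact dvd_mul_left _ _)
  exact hM.2 p hp (hN p hp hpN) (hpd.trans (Subgroup.relIndex_dvd_index_of_le h))

theorem hall_iff_fact (H : Subgroup G) :
    Cfsg.IsPiHall π H ↔ Cfsg.IsPiSubgroup π H ∧
      ∀ r ∈ π, r.Prime → (Nat.card G).factorization r ≤ (Nat.card H).factorization r := by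
  have e : ∀ r, (Nat.card G).factorization r = (Nat.card H).factorization r + H.index.factorization r :=
    fun r => by rw [← fact_mul Nat.card_pos.ne' Subgroup.index_ne_zero_of_finite, Subgroup.card_mul_index]
  constructor
  · rintro ⟨h1, h2⟩
    refine ⟨h1, fun r hr hrp => ?_⟩
    rw [e, Nat.factorization_eq_zero_of_not_dvd (h2 r hrp hr), add_zero]
  · rintro ⟨h1, h2⟩
    refine ⟨h1, fun r hrp hr hd => ?_⟩
    have := (hrp.dvd_iff_one_le_factorization Subgroup.index_ne_zero_of_finite).1 hd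
    have := h2 r hr hrp
    have := e r
    omega

theorem exists_maximal_ge {K : Subgroup G} (hK : Cfsg.IsPiSubgroup π K) :
    ∃ N, K ≤ N ∧ Maximal (Cfsg.IsPiSubgroup π) N := by
  classical
  haveI : Finite (Subgroup G) := inferInstance
  obtain ⟨N, hN, hmax⟩ := (Set.toFinite {H : Subgroup G | Cfsg.IsPiSubgroup π H ∧ K ≤ H}).exists_maximal
    ⟨K, hK, le_rfl⟩
  exact ⟨N, hN.2, hN.1, fun H hH hNH => hmax ⟨hH, hN.2.trans hNH⟩ hNH⟩

theorem maximal_of_hall {H : Subgroup G} (hH : Cfsg.IsPiHall π H) : Maximal (Cfsg.IsPiSubgroup π) H :=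
  ⟨hH.1, fun _ hN hle => (eq_of_hall_le hH hN hle).ge⟩

theorem hall_of_dpi (hD : Cfsg.IsDPiGroup π G) {N : Subgroup G} (hN : Maximal (Cfsg.IsPiSubgroup π) N) :
    Cfsg.IsPiHall π N := by
  refine (hall_iff_fact N).2 ⟨hN.1, fun r hr hrp => ?_⟩
  haveI := Fact.mk hrp
  obtain ⟨P⟩ : Nonempty (Sylow r G) := inferInstance
  have hP : Cfsg.IsPiSubgroup π (P : Subgroup G) := fun p hp hpd => by
    obtain ⟨i, hi⟩ := IsPGroup.iff_card.1 P.2
    rw [hi] at hpd
    rwa [(Nat.prime_dvd_prime_iff_eq hp hrp).1 (hp.dvd_of_dvd_pow hpd)]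
  obtain ⟨N', hle, hN'⟩ := exists_maximal_ge hP
  obtain ⟨g, rfl⟩ := hD N' N hN' hN
  rw [Subgroup.card_map_of_injective (MulAut.conj g).injective]
  have := fact_le_of_dvd Nat.card_pos.ne' (Subgroup.card_dvd_of_le hle) r
  rwa [P.card_eq_multiplicity, hrp.factorization_pow, Finsupp.single_eq_same] at this

/-- At most one prime of `π` divides the order. -/
theorem one_prime {p : ℕ} [hp : Fact p.Prime] (h : ∀ r : ℕ, r.Prime → r ∈ π → r ∣ Nat.card G → r = p)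
    (hπ : p ∈ π ∨ ¬ p ∣ Nat.card G) :
    (∀ H : Subgroup G, Cfsg.IsPiHall π H ↔ ∃ P : Sylow p G, (P : Subgroup G) = H) ∧
      Cfsg.IsCPiGroup π G ∧ Cfsg.IsDPiGroup π G := by
  have hpi : ∀ H : Subgroup G, Cfsg.IsPiSubgroup π H ↔ IsPGroup p H := by
    intro H
    constructor
    · intro hH
      exact IsPGroup.of_card (Nat.eq_prime_pow_of_unique_prime_dvd Nat.card_pos.ne' fun {r} hr hrd =>
        h r hr (hH r hr hrd) (hrd.trans H.card_subgroup_dvd_card))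
    · intro hH r hr hrd
      obtain ⟨i, hi⟩ := IsPGroup.iff_card.1 hH
      rw [hi] at hrd
      have e := (Nat.prime_dvd_prime_iff_eq hr hp.out).1 (hr.dvd_of_dvd_pow hrd)
      subst e
      rcases hπ with h1 | h1
      · exact h1
      · rcases Nat.eq_zero_or_pos i with rfl | hi0
        · simp [hr.ne_one] at hrd
        · exact absurd ((hi ▸ dvd_pow_self r hi0.ne' : r ∣ Nat.card H).trans H.card_subgroup_dvd_card) h1
  have hsyl : ∀ P : Sylow p G, Cfsg.IsPiHall π (P : Subgroup G) := fun P => by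
    refine (hall_iff_fact _).2 ⟨(hpi _).2 P.2, fun r hr hrp => ?_⟩
    by_cases hd : r ∣ Nat.card G
    · obtain rfl := h r hrp hr hd
      rw [P.card_eq_multiplicity, hrp.factorization_pow, Finsupp.single_eq_same]
    · rw [Nat.factorization_eq_zero_of_not_dvd hd]; exact Nat.zero_le _
  have hmax : ∀ H, Maximal (Cfsg.IsPiSubgroup π) H → ∃ P : Sylow p G, (P : Subgroup G) = H := by
    intro H hH
    obtain ⟨P, hP⟩ := ((hpi H).1 hH.1).exists_le_sylow
    exact ⟨P, le_antisymm (hH.2 ((hpi _).2 P.2) hP) hP⟩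
  have hconj : ∀ P Q : Sylow p G, ∃ g : G, (Q : Subgroup G) = (P : Subgroup G).map (MulAut.conj g).toMonoidHom := by
    intro P Q
    obtain ⟨g, hg⟩ := MulAction.exists_smul_eq G P Q
    exact ⟨g, by rw [← hg, Sylow.coe_subgroup_smul]; rfl⟩
  refine ⟨fun H => ⟨fun hH => hmax H (maximal_of_hall hH), fun ⟨P, e⟩ => e ▸ hsyl P⟩, ⟨?_, fun H K hH hK => ?_⟩,
    fun H K hH hK => ?_⟩
  · obtain ⟨P⟩ : Nonempty (Sylow p G) := inferInstance
    exact ⟨_, hsyl P⟩
  · obtain ⟨P, rfl⟩ := hmax H (maximal_of_hall hH)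
    obtain ⟨Q, rfl⟩ := hmax K (maximal_of_hall hK)
    exact hconj P Q
  · obtain ⟨P, rfl⟩ := hmax H hH
    obtain ⟨Q, rfl⟩ := hmax K hK
    exact hconj P Q

theorem one_prime' (h : ∀ r s : ℕ, r.Prime → s.Prime → r ∈ π → s ∈ π → r ∣ Nat.card G → s ∣ Nat.card G → r = s) :
    Cfsg.IsCPiGroup π G ∧ Cfsg.IsDPiGroup π G := by
  by_cases hex : ∃ p : ℕ, p.Prime ∧ p ∈ π ∧ p ∣ Nat.card G
  · obtain ⟨p, hp, hpπ, hpd⟩ := hex
    haveI := Fact.mk hp
    exact (one_prime (p := p) (fun r hr hrπ hrd => h r p hr hp hrπ hpπ hrd hpd) (Or.inl hpπ)).2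
  · obtain ⟨p, hlt, hp⟩ := Nat.exists_infinite_primes (Nat.card G + 1)
    haveI := Fact.mk hp
    exact (one_prime (p := p) (fun r hr hrπ hrd => absurd ⟨r, hr, hrπ, hrd⟩ hex)
      (Or.inr fun hd => by have := Nat.le_of_dvd Nat.card_pos hd; omega)).2

/-- Every prime divisor of the order lies in `π`. -/
theorem all_primes (h : ∀ r : ℕ, r.Prime → r ∣ Nat.card G → r ∈ π) :
    (∀ H : Subgroup G, Cfsg.IsPiHall π H ↔ H = ⊤) ∧ Cfsg.IsCPiGroup π G ∧ Cfsg.IsDPiGroup π G := by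
  have htop : Cfsg.IsPiHall π (⊤ : Subgroup G) :=
    (hall_iff_fact _).2 ⟨fun r hr hrd => h r hr (by rwa [Subgroup.card_top] at hrd), fun r _ _ => by
      rw [Subgroup.card_top]⟩
  have hsub : ∀ H : Subgroup G, Maximal (Cfsg.IsPiSubgroup π) H → H = ⊤ := fun H hH =>
    top_le_iff.1 (hH.2 htop.1 le_top)
  have hmap : ∀ g : G, (⊤ : Subgroup G) = (⊤ : Subgroup G).map (MulAut.conj g).toMonoidHom := fun g =>
    (Subgroup.map_top_of_surjective _ (MulAut.conj g).surjective).symm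
  refine ⟨fun H => ⟨fun hH => hsub H (maximal_of_hall hH), fun e => e ▸ htop⟩, ⟨⟨⊤, htop⟩, fun H K hH hK => ⟨1, ?_⟩⟩,
    fun H K hH hK => ⟨1, ?_⟩⟩
  · rw [hsub H (maximal_of_hall hH), hsub K (maximal_of_hall hK)]; exact hmap 1
  · rw [hsub H hH, hsub K hK]; exact hmap 1

end generic

/-! ### The symmetric group -/

variable {Ω : Type u} [Fintype Ω] [DecidableEq Ω] {π : Set ℕ}

theorem card_perm' : Nat.card (Perm Ω) = (Fintype.card Ω)! := by
  rw [Nat.card_perm, Nat.card_eq_fintype_card]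

theorem hallish_of_perm {H : Subgroup (Perm Ω)} (hH : Cfsg.IsPiHall π H) : Hallish π H := by
  obtain ⟨h1, h2⟩ := (hall_iff_fact H).1 hH
  exact ⟨h1, Or.inl fun r hr hrp => by have := h2 r hr hrp; rwa [card_perm'] at this⟩

theorem hall_of_big {H : Subgroup (Perm Ω)} (h1 : Cfsg.IsPiSubgroup π H) (h2 : Big π H) :
    Cfsg.IsPiHall π H :=
  (hall_iff_fact H).2 ⟨h1, fun r hr hrp => by rw [card_perm']; exact h2 r hr hrp⟩

theorem two_mul_alt [Nontrivial Ω] : 2 * Nat.card ↥(alternatingGroup Ω) = (Fintype.card Ω)! := by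
  rw [two_mul_nat_card_alternatingGroup, card_perm']

theorem alt_hall_iff [Nontrivial Ω] (M : Subgroup ↥(alternatingGroup Ω)) :
    Cfsg.IsPiHall π M ↔ Cfsg.IsPiSubgroup π (M.map (alternatingGroup Ω).subtype) ∧
      ∀ r ∈ π, r.Prime → (Fintype.card Ω)!.factorization r ≤
        (2 * Nat.card ↥(M.map (alternatingGroup Ω).subtype)).factorization r := by
  have hc : Nat.card ↥(M.map (alternatingGroup Ω).subtype) = Nat.card M :=
    Subgroup.card_map_of_injective (alternatingGroup Ω).subtype_injective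
  rw [hall_iff_fact, Cfsg.IsPiSubgroup, Cfsg.IsPiSubgroup, hc]
  refine and_congr_right fun _ => forall_congr' fun r => forall_congr' fun _ => forall_congr' fun _ => ?_
  rw [← two_mul_alt, fact_mul two_ne_zero Nat.card_pos.ne', fact_mul two_ne_zero Nat.card_pos.ne',
    Nat.add_le_add_iff_left]

theorem hallish_of_alt [Nontrivial Ω] {M : Subgroup ↥(alternatingGroup Ω)} (hM : Cfsg.IsPiHall π M) :
    Hallish π (M.map (alternatingGroup Ω).subtype) :=
  ⟨((alt_hall_iff M).1 hM).1, Or.inr ⟨Subgroup.map_subtype_le M, ((alt_hall_iff M).1 hM).2⟩⟩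

/-- A Hall subgroup of the symmetric group meets the alternating group in a Hall subgroup. -/
theorem hall_inter [Nontrivial Ω] {M₀ : Subgroup (Perm Ω)} (h : Cfsg.IsPiHall π M₀) :
    Cfsg.IsPiHall π (M₀.subgroupOf (alternatingGroup Ω)) := by
  obtain ⟨h1, h2⟩ := (hall_iff_fact M₀).1 h
  rw [alt_hall_iff, Subgroup.subgroupOf_map_subtype]
  refine ⟨fun p hp hpd => h1 p hp (hpd.trans (Subgroup.card_dvd_of_le inf_le_left)), fun r hr hrp => ?_⟩
  have h3 : Nat.card M₀ ∣ 2 * Nat.card ↥(M₀ ⊓ alternatingGroup Ω) := by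
    rw [← Subgroup.relIndex_bot_left M₀, ← Subgroup.relIndex_mul_relIndex ⊥ (M₀ ⊓ alternatingGroup Ω) M₀
      bot_le inf_le_left, Subgroup.relIndex_bot_left, mul_comm]
    refine Nat.mul_dvd_mul_right ?_ _
    rw [Subgroup.inf_relIndex_left, ← alternatingGroup.index_eq_two (α := Ω)]
    exact Subgroup.relIndex_dvd_index_of_normal (alternatingGroup Ω) M₀
  have := h2 r hr hrp
  rw [card_perm'] at this
  exact this.trans (fact_le_of_dvd (Nat.mul_ne_zero two_ne_zero Nat.card_pos.ne') h3 r)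

/-! ### The exceptional shapes -/

/-- The overgroups of the exceptional shapes. -/
def Canon (π : Set ℕ) (U : Subgroup (Perm Ω)) : Prop :=
  ((Fintype.card Ω).Prime ∧ (∀ p : ℕ, p.Prime → p ≤ Fintype.card Ω → (p ∈ π ↔ p < Fintype.card Ω)) ∧
    ∃ a : Ω, U = stabilizer (Perm Ω) a) ∨
  (Fintype.card Ω = 7 ∧ (∀ p : ℕ, p.Prime → p ≤ Fintype.card Ω → (p ∈ π ↔ p = 2 ∨ p = 3)) ∧
    ∃ D : Finset Ω, D.card = 4 ∧ U = fixFun fun x => decide (x ∈ D)) ∨
  (Fintype.card Ω = 8 ∧ (∀ p : ℕ, p.Prime → p ≤ Fintype.card Ω → (p ∈ π ↔ p = 2 ∨ p = 3)) ∧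
    ∃ f : Ω → Fin 2, (∀ i, Nat.card {x // f x = i} = 4) ∧ U = PartitionStab.K f)

theorem prime_two_three {p m : ℕ} (hp : p.Prime) (h : p ∣ 2 ^ m * 3 ^ m) : p = 2 ∨ p = 3 := by
  rcases (Nat.Prime.dvd_mul hp).1 h with h | h
  · exact Or.inl ((Nat.prime_dvd_prime_iff_eq hp Nat.prime_two).1 (hp.dvd_of_dvd_pow h))
  · exact Or.inr ((Nat.prime_dvd_prime_iff_eq hp Nat.prime_three).1 (hp.dvd_of_dvd_pow h))

theorem card_fixFun_bool (D : Finset Ω) :
    Nat.card (fixFun fun x => decide (x ∈ D)) = D.card ! * Dᶜ.card ! := by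
  rw [card_fixFun, Fintype.prod_bool, Nat.card_congr (Equiv.subtypeEquivRight (q := fun x => x ∈ D) fun x => by simp),
    Nat.card_congr (Equiv.subtypeEquivRight (p := fun x => decide (x ∈ D) = false) (q := fun x => x ∈ Dᶜ) fun x => by simp)]
  simp [Nat.card_eq_fintype_card, Fintype.card_subtype, Finset.card_compl]
  left
  rw [← Finset.card_compl, Finset.compl_eq_univ_sdiff, Finset.sdiff_eq_filter]

theorem card_K_two {f : Ω → Fin 2} (hf : ∀ i, Nat.card {x // f x = i} = 4) :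
    Nat.card (PartitionStab.K f) ∣ 2 ^ 8 * 3 ^ 8 := by
  have hsurj : Function.Surjective fun x => ULift.up.{u} (f x) := fun i => by
    obtain ⟨x, hx⟩ := (Nat.card_ne_zero.1 (by rw [hf i.down]; norm_num : Nat.card {x // f x = i.down} ≠ 0)).1
    exact ⟨x, ULift.ext _ _ hx⟩
  have hle : PartitionStab.K f ≤ PartitionStab.K fun x => ULift.up.{u} (f x) := fun g hg x y => by
    simpa [ULift.ext_iff] using hg x y
  have h := card_dvd_of_fibres hsurj hle (f' := fun x => ULift.up.{u} (f x)) (fun g _ h => h) (R := ⊤)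
    fun g _ => Subgroup.mem_top _
  rw [Subgroup.card_top, Finset.prod_congr rfl (g := fun _ => (4 : ℕ)!) fun i _ => by
    rw [← hf i.down]
    congr 1
    exact Nat.card_congr (Equiv.subtypeEquivRight fun x => by simp [ULift.ext_iff])] at h
  refine h.trans ?_
  rw [Nat.card_perm, Nat.card_eq_fintype_card, Fintype.card_ulift, Finset.prod_const, Finset.card_univ,
    Fintype.card_ulift, Fintype.card_fin]
  decide

theorem canon_pi {U : Subgroup (Perm Ω)} (hU : Canon π U) : Cfsg.IsPiSubgroup π U := by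
  intro p hp hpd
  have hpk := prime_le_of_dvd hp hpd
  rcases hU with ⟨hn, hπ, a, rfl⟩ | ⟨h7, hπ, D, hD, rfl⟩ | ⟨h8, hπ, f, hf, rfl⟩
  · refine (hπ p hp hpk).2 (lt_of_le_of_ne hpk fun e => ?_)
    have h1 := Subgroup.index_mul_card (stabilizer (Perm Ω) a)
    rw [index_stabilizer_of_transitive, card_perm', Nat.card_eq_fintype_card (α := Ω),
      ← Nat.mul_factorial_pred hn.ne_zero] at h1
    rw [Nat.eq_of_mul_eq_mul_left hn.pos h1, e, hn.dvd_factorial] at hpd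
    have := hn.one_lt
    omega
  · refine (hπ p hp hpk).2 (prime_two_three (m := 4) hp (hpd.trans ?_))
    rw [card_fixFun_bool, hD, Finset.card_compl, hD, h7]
    decide
  · exact (hπ p hp hpk).2 (prime_two_three hp (hpd.trans (card_K_two hf)))

theorem canon_odd {U : Subgroup (Perm Ω)} (hU : Canon π U)
    (h2 : ∃ r s : ℕ, r.Prime ∧ s.Prime ∧ r ≠ s ∧ r ∈ π ∧ s ∈ π ∧ r ≤ Fintype.card Ω ∧ s ≤ Fintype.card Ω) :
    ∃ g ∈ U, sign g = -1 := by
  obtain ⟨r, s, hr, hs, hrs, -, -, hrk, hsk⟩ := h2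
  have h3 : 3 ≤ Fintype.card Ω := by
    have := hr.two_le; have := hs.two_le
    omega
  rcases hU with ⟨hn, hπ, a, rfl⟩ | ⟨h7, hπ, D, hD, rfl⟩ | ⟨h8, hπ, f, hf, rfl⟩
  · obtain ⟨u, hu, w, hw, hne⟩ := Finset.one_lt_card.1 (show 1 < (Finset.univ.erase a).card by
      rw [Finset.card_erase_of_mem (Finset.mem_univ a), Finset.card_univ]; omega)
    exact ⟨swap u w, mem_stabilizer_iff.2 (swap_apply_of_ne_of_ne (Finset.ne_of_mem_erase hu).symm
      (Finset.ne_of_mem_erase hw).symm), sign_swap hne⟩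
  · obtain ⟨u, hu, w, hw, hne⟩ := Finset.one_lt_card.1 (show 1 < D.card by omega)
    exact ⟨swap u w, swap_mem_fixFun _ (by simp [hu, hw]), sign_swap hne⟩
  · obtain ⟨p, q, hpq⟩ := @exists_pair_ne _
      (Finite.one_lt_card_iff_nontrivial.1 (show 1 < Nat.card {x // f x = 0} by rw [hf]; norm_num))
    exact ⟨swap p.1 q.1, PartitionStab.swap_mem_K f (p.2.trans q.2.symm),
      sign_swap fun h => hpq (Subtype.ext h)⟩

theorem mem_map_conj {U : Subgroup (Perm Ω)} {g h : Perm Ω} :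
    h ∈ U.map (MulAut.conj g).toMonoidHom ↔ g⁻¹ * h * g ∈ U := by
  constructor
  · rintro ⟨y, hy, rfl⟩
    simpa [mul_assoc] using hy
  · intro hy
    exact ⟨_, hy, by simp [mul_assoc]⟩

theorem canon_conj {U U' : Subgroup (Perm Ω)} (hU : Canon π U) (hU' : Canon π U') :
    ∃ g : Perm Ω, U' = U.map (MulAut.conj g).toMonoidHom := by
  rcases hU with ⟨hn, hπ, a, rfl⟩ | ⟨h7, hπ, D, hD, rfl⟩ | ⟨h8, hπ, f, hf, rfl⟩ <;>
    rcases hU' with ⟨hn', hπ', a', rfl⟩ | ⟨h7', hπ', D', hD', rfl⟩ | ⟨h8', hπ', f', hf', rfl⟩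
  · refine ⟨swap a a', Subgroup.ext fun h => ?_⟩
    rw [mem_map_conj, mem_stabilizer_iff, mem_stabilizer_iff, Perm.smul_def, Perm.smul_def, Perm.mul_apply,
      Perm.mul_apply, swap_apply_left, Perm.inv_def, symm_swap, swap_apply_eq_iff, swap_apply_left]
  · exfalso
    rw [h7'] at hπ hπ'
    have h5 := (hπ 5 Nat.prime_five (by norm_num)).2 (by norm_num)
    have := (hπ' 5 Nat.prime_five (by norm_num)).1 h5
    norm_num at this
  · exact absurd (h8' ▸ hn) (by norm_num)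
  · exfalso
    rw [h7] at hπ hπ'
    have h5 := (hπ' 5 Nat.prime_five (by norm_num)).2 (by norm_num)
    have := (hπ 5 Nat.prime_five (by norm_num)).1 h5
    norm_num at this
  · let e : {x // x ∈ D} ≃ {x // x ∈ D'} := Fintype.equivOfCardEq (by simp [hD, hD'])
    refine ⟨e.extendSubtype, Subgroup.ext fun h => ?_⟩
    have hmem : ∀ x, e.extendSubtype x ∈ D' ↔ x ∈ D := fun x => ⟨fun h1 => by
      by_contra hx; exact extendSubtype_not_mem e x hx h1, fun h1 => extendSubtype_mem e x h1⟩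
    have hmem' : ∀ x, e.extendSubtype⁻¹ x ∈ D ↔ x ∈ D' := fun x => by
      rw [← hmem (e.extendSubtype⁻¹ x)]; simp
    have hconv : ∀ (E : Finset Ω) (k : Perm Ω), k ∈ fixFun (fun x => decide (x ∈ E)) ↔
        ∀ x, (k x ∈ E ↔ x ∈ E) := fun E k => forall_congr' fun x => decide_eq_decide
    rw [mem_map_conj, hconv, hconv]
    simp only [Perm.mul_apply]
    constructor
    · intro hh x
      rw [hmem', hh, hmem]
    · intro hh x
      have := hh (e.extendSubtype⁻¹ x)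
      rw [hmem', hmem'] at this
      simpa using this
  · omega
  · exact absurd (h8 ▸ hn') (by norm_num)
  · omega
  · let e : ∀ c, {x // f x = c} ≃ {x // f' x = c} := fun c => Classical.choice (Finite.card_eq.1 (by rw [hf, hf']))
    obtain ⟨σ, hσ⟩ : ∃ σ : Perm Ω, ∀ x, f' (σ x) = f x := ⟨_, Equiv.ofFiberEquiv_map e⟩
    refine ⟨σ, Subgroup.ext fun h => ?_⟩
    have hσ' : ∀ x, f (σ⁻¹ x) = f' x := fun x => by
      rw [← hσ]; simp
    rw [mem_map_conj]
    show (∀ x y, f' x = f' y ↔ f' (h x) = f' (h y)) ↔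
      ∀ x y, f x = f y ↔ f ((σ⁻¹ * h * σ) x) = f ((σ⁻¹ * h * σ) y)
    simp only [Perm.mul_apply, hσ']
    constructor
    · intro hh x y
      rw [← hh, hσ, hσ]
    · intro hh x y
      have := hh (σ⁻¹ x) (σ⁻¹ y)
      rw [hσ', hσ'] at this
      simpa using this

theorem canon_conj_even {U U' : Subgroup (Perm Ω)} (hU : Canon π U) (hU' : Canon π U')
    (h2 : ∃ r s : ℕ, r.Prime ∧ s.Prime ∧ r ≠ s ∧ r ∈ π ∧ s ∈ π ∧ r ≤ Fintype.card Ω ∧ s ≤ Fintype.card Ω) :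
    ∃ g ∈ alternatingGroup Ω, U' = U.map (MulAut.conj g).toMonoidHom := by
  obtain ⟨g, rfl⟩ := canon_conj hU hU'
  rcases Int.units_eq_one_or (sign g) with h | h
  · exact ⟨g, h, rfl⟩
  obtain ⟨t, ht, hts⟩ := canon_odd hU h2
  refine ⟨g * t, by rw [mem_alt_iff, map_mul, h, hts]; rfl, Subgroup.ext fun x => ?_⟩
  rw [mem_map_conj, mem_map_conj, show (g * t)⁻¹ * x * (g * t) = t⁻¹ * (g⁻¹ * x * g) * t by group]
  exact ⟨fun hx => mul_mem (mul_mem (inv_mem ht) hx) ht, fun hx => by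
    simpa [mul_assoc] using mul_mem (mul_mem ht hx) (inv_mem ht)⟩

/-- With two primes in `π` and one outside, a Hall subgroup lies in an exceptional overgroup. -/
theorem exists_canon {X : Subgroup (Perm Ω)} (hX : Hallish π X)
    (h2 : ∃ r s : ℕ, r.Prime ∧ s.Prime ∧ r ≠ s ∧ r ∈ π ∧ s ∈ π ∧ r ≤ Fintype.card Ω ∧ s ≤ Fintype.card Ω)
    (hns : ∃ p : ℕ, p.Prime ∧ p ≤ Fintype.card Ω ∧ p ∉ π) :
    ∃ U, Canon π U ∧ X ≤ U ∧ Cfsg.IsPiHall π U := by
  suffices ∃ U, Canon π U ∧ X ≤ U by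
    obtain ⟨U, hU, hle⟩ := this
    obtain ⟨g, hg, hodd⟩ := canon_odd hU h2
    exact ⟨U, hU, hle, hall_of_big (canon_pi hU) fun r hr hrp => hX.bound hle hg hodd hr hrp⟩
  rcases hall_shape Ω X hX h2 with h | ⟨hn, hπ, a, ha⟩ | ⟨h7, hπ, D, hD, hinv⟩ | ⟨h8, hπ, -, f, hf, hle⟩
  · obtain ⟨p, hp, hpk, hpπ⟩ := hns
    exact absurd (h p hp hpk) hpπ
  · exact ⟨_, Or.inl ⟨hn, hπ, a, rfl⟩, fun g hg => mem_stabilizer_iff.2 (ha g hg)⟩
  · exact ⟨_, Or.inr (Or.inl ⟨h7, hπ, D, hD, rfl⟩), fun g hg x => by simp only [decide_eq_decide, hinv g hg x]⟩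
  · exact ⟨_, Or.inr (Or.inr ⟨h8, hπ, f, hf, rfl⟩), hle⟩

theorem perm_cases (Ω : Type u) [Fintype Ω] (π : Set ℕ) :
    (∀ r s : ℕ, r.Prime → s.Prime → r ∈ π → s ∈ π → r ≤ Fintype.card Ω → s ≤ Fintype.card Ω → r = s) ∨
    (∀ p : ℕ, p.Prime → p ≤ Fintype.card Ω → p ∈ π) ∨
    ((∃ r s : ℕ, r.Prime ∧ s.Prime ∧ r ≠ s ∧ r ∈ π ∧ s ∈ π ∧ r ≤ Fintype.card Ω ∧ s ≤ Fintype.card Ω) ∧
      ∃ p : ℕ, p.Prime ∧ p ≤ Fintype.card Ω ∧ p ∉ π) := by
  by_cases h1 : ∀ r s : ℕ, r.Prime → s.Prime → r ∈ π → s ∈ π → r ≤ Fintype.card Ω → s ≤ Fintype.card Ω → r = s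
  · exact Or.inl h1
  by_cases h2 : ∀ p : ℕ, p.Prime → p ≤ Fintype.card Ω → p ∈ π
  · exact Or.inr (Or.inl h2)
  push Not at h1 h2
  obtain ⟨r, s, hr, hs, hrπ, hsπ, hrk, hsk, hne⟩ := h1
  exact Or.inr (Or.inr ⟨⟨r, s, hr, hs, hne, hrπ, hsπ, hrk, hsk⟩, h2⟩)

theorem le_of_dvd_perm {p : ℕ} (hp : p.Prime) (h : p ∣ Nat.card (Perm Ω)) : p ≤ Fintype.card Ω := by
  rwa [card_perm', hp.dvd_factorial] at h

theorem le_of_dvd_alt {p : ℕ} (hp : p.Prime) (h : p ∣ Nat.card ↥(alternatingGroup Ω)) : p ≤ Fintype.card Ω :=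
  le_of_dvd_perm hp (h.trans (alternatingGroup Ω).card_subgroup_dvd_card)

/-- A Hall subgroup of the alternating group is cut out by one of the symmetric group. -/
theorem exists_over [Nontrivial Ω] {M : Subgroup ↥(alternatingGroup Ω)} (hM : Cfsg.IsPiHall π M) :
    ∃ M₀, Cfsg.IsPiHall π M₀ ∧ M = M₀.subgroupOf (alternatingGroup Ω) := by
  suffices ∃ M₀, Cfsg.IsPiHall π M₀ ∧ M.map (alternatingGroup Ω).subtype ≤ M₀ by
    obtain ⟨M₀, h0, hle⟩ := this
    refine ⟨M₀, h0, eq_of_hall_le hM ((hall_inter h0).1) fun x hx => ?_⟩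
    exact Subgroup.mem_subgroupOf.2 (hle ⟨x, hx, rfl⟩)
  have hX := hallish_of_alt hM
  rcases perm_cases Ω π with h | h | ⟨h2, hns⟩
  · by_cases hex : ∃ p : ℕ, p.Prime ∧ p ∈ π ∧ p ≤ Fintype.card Ω
    · obtain ⟨p, hp, hpπ, hpk⟩ := hex
      haveI := Fact.mk hp
      have h1 := one_prime (G := Perm Ω) (p := p)
        (fun r hr hrπ hrd => h r p hr hp hrπ hpπ (le_of_dvd_perm hr hrd) hpk) (Or.inl hpπ)
      have hpg : IsPGroup p ↥(M.map (alternatingGroup Ω).subtype) :=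
        IsPGroup.of_card (Nat.eq_prime_pow_of_unique_prime_dvd Nat.card_pos.ne' fun {r} hr hrd =>
          h r p hr hp (hX.1 r hr hrd) hpπ (prime_le_of_dvd hr hrd) hpk)
      obtain ⟨P, hP⟩ := hpg.exists_le_sylow
      exact ⟨P, (h1.1 _).2 ⟨P, rfl⟩, hP⟩
    · obtain ⟨H, hH⟩ := (one_prime' (G := Perm Ω) fun r s hr hs hrπ hsπ hrd hsd =>
        h r s hr hs hrπ hsπ (le_of_dvd_perm hr hrd) (le_of_dvd_perm hs hsd)).1.1
      refine ⟨H, hH, le_of_eq_of_le (Subgroup.eq_bot_of_card_eq _ ?_) bot_le⟩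
      by_contra hne
      obtain ⟨p, hp, hpd⟩ := Nat.exists_prime_and_dvd hne
      exact hex ⟨p, hp, hX.1 p hp hpd, prime_le_of_dvd hp hpd⟩
  · exact ⟨⊤, ((all_primes (G := Perm Ω) fun r hr hrd => h r hr (le_of_dvd_perm hr hrd)).1 ⊤).2 rfl, le_top⟩
  · obtain ⟨U, -, hle, hH⟩ := exists_canon hX h2 hns
    exact ⟨U, hH, hle⟩

/-- Conjugacy in the symmetric group. -/
theorem perm_cpi (hE : Cfsg.IsEPiGroup π (Perm Ω)) : Cfsg.IsCPiGroup π (Perm Ω) := by
  rcases perm_cases Ω π with h | h | ⟨h2, hns⟩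
  · exact (one_prime' fun r s hr hs hrπ hsπ hrd hsd =>
      h r s hr hs hrπ hsπ (le_of_dvd_perm hr hrd) (le_of_dvd_perm hs hsd)).1
  · exact (all_primes fun r hr hrd => h r hr (le_of_dvd_perm hr hrd)).2.1
  refine ⟨hE, fun H K hH hK => ?_⟩
  obtain ⟨U, hU, hle, -⟩ := exists_canon (hallish_of_perm hH) h2 hns
  obtain ⟨V, hV, hle', -⟩ := exists_canon (hallish_of_perm hK) h2 hns
  rw [eq_of_hall_le hH (canon_pi hU) hle, eq_of_hall_le hK (canon_pi hV) hle']
  exact canon_conj hU hV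

/-- Conjugacy in the alternating group. -/
theorem alt_cpi [Nontrivial Ω] (hE : Cfsg.IsEPiGroup π ↥(alternatingGroup Ω)) :
    Cfsg.IsCPiGroup π ↥(alternatingGroup Ω) := by
  rcases perm_cases Ω π with h | h | ⟨h2, hns⟩
  · exact (one_prime' fun r s hr hs hrπ hsπ hrd hsd =>
      h r s hr hs hrπ hsπ (le_of_dvd_alt hr hrd) (le_of_dvd_alt hs hsd)).1
  · exact (all_primes fun r hr hrd => h r hr (le_of_dvd_alt hr hrd)).2.1
  refine ⟨hE, fun H K hH hK => ?_⟩
  obtain ⟨U, hU, hle, hUh⟩ := exists_canon (hallish_of_alt hH) h2 hns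
  obtain ⟨V, hV, hle', hVh⟩ := exists_canon (hallish_of_alt hK) h2 hns
  obtain ⟨g, hg, e⟩ := canon_conj_even hU hV h2
  have eH : H = U.subgroupOf (alternatingGroup Ω) :=
    eq_of_hall_le hH (hall_inter hUh).1 fun x hx => Subgroup.mem_subgroupOf.2 (hle ⟨x, hx, rfl⟩)
  have eK : K = V.subgroupOf (alternatingGroup Ω) :=
    eq_of_hall_le hK (hall_inter hVh).1 fun x hx => Subgroup.mem_subgroupOf.2 (hle' ⟨x, hx, rfl⟩)
  refine ⟨⟨g, hg⟩, Subgroup.ext fun x => ?_⟩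
  rw [eK, eH, Subgroup.mem_subgroupOf, e, mem_map_conj]
  constructor
  · intro hx
    exact ⟨⟨g, hg⟩⁻¹ * x * ⟨g, hg⟩, Subgroup.mem_subgroupOf.2 (by push_cast; exact hx), by simp [mul_assoc]⟩
  · rintro ⟨y, hy, rfl⟩
    have := Subgroup.mem_subgroupOf.1 hy
    simpa [mul_assoc] using this

end Cfsg.Agent.Lib.HallSym
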