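import Mathlib

/-!
A binomial coefficient `(k + l).choose l`, `2 ≤ l ≤ k`, has a prime factor at most `k`,
except for `(7).choose 3`.
-/

set_option autoImplicit false

namespace Cfsg.Agent.Lib.HallSym

open Nat

/-- No prime up to `k` divides `(k + l).choose l`. -/
def Clean (k l : ℕ) : Prop := ∀ p : ℕ, p.Prime → p ≤ k → ¬ p ∣ (k + l).choose l

theorem dvd_of_primes {k l x : ℕ} (hlk : l ≤ k) (h : Clean k l)
    (hx : ∀ p : ℕ, p.Prime → k < p → p ≤ k + l → p ∣ x) : (k + l).choose l ∣ x := by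
  rcases eq_or_ne x 0 with rfl | hx0
  · exact dvd_zero _
  have hC : (k + l).choose l ≠ 0 := (Nat.choose_pos (by omega)).ne'
  rw [← Nat.factorization_le_iff_dvd hC hx0]
  intro p
  by_cases h0 : ((k + l).choose l).factorization p = 0
  · omega
  have hp : p.Prime := by
    by_contra hnp; exact h0 (Nat.factorization_eq_zero_of_not_prime _ hnp)
  have hdvd : p ∣ (k + l).choose l := Nat.dvd_of_factorization_pos h0
  have hkp : k < p := by
    by_contra hle; exact h p hp (by omega) hdvd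
  have hpn : p ≤ k + l := by
    by_contra hle; exact h0 (Nat.factorization_choose_eq_zero_of_lt (by omega))
  have h1 : ((k + l).choose l).factorization p ≤ 1 := Nat.factorization_choose_le_one (by nlinarith)
  have h2 : 1 ≤ x.factorization p := (hp.dvd_iff_one_le_factorization hx0).1 (hx p hp hkp hpn)
  omega

theorem top_rel {k l : ℕ} (hlk : l ≤ k) (h : Clean k l) (j x : ℕ) (hj : j ≤ l)
    (hx : ∀ p : ℕ, p.Prime → k < p → p ≤ k + l → p ∣ x * (k + l - j).choose (l - j)) :
    (k + l).descFactorial j ∣ x * l.descFactorial j := by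
  obtain ⟨q, hq⟩ := dvd_of_primes hlk h hx
  have e := Nat.choose_mul (n := k + l) (k := l) (s := j) hj
  refine ⟨q, Nat.eq_of_mul_eq_mul_left (Nat.choose_pos (show l ≤ k + l by omega)) ?_⟩
  rw [Nat.descFactorial_eq_factorial_mul_choose, Nat.descFactorial_eq_factorial_mul_choose]
  calc (k + l).choose l * (x * (j ! * l.choose j))
      = x * j ! * ((k + l).choose l * l.choose j) := by ring
    _ = x * j ! * ((k + l).choose j * (k + l - j).choose (l - j)) := by rw [e]
    _ = j ! * (k + l).choose j * (x * (k + l - j).choose (l - j)) := by ring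
    _ = _ := by rw [hq]; ring

theorem bottom_rel {k l : ℕ} (hlk : l ≤ k) (h : Clean k l) (j x : ℕ) (hj : j ≤ l)
    (hx : ∀ p : ℕ, p.Prime → k < p → p ≤ k + l → p ∣ x * (k + l).choose (k + j)) :
    (k + j).descFactorial j ∣ x * l.descFactorial j := by
  obtain ⟨q, hq⟩ := dvd_of_primes hlk h hx
  have e := Nat.choose_mul (n := k + l) (k := k + j) (s := k) (by omega)
  rw [Nat.add_sub_cancel_left, Nat.add_sub_cancel_left, Nat.choose_symm_add (a := k) (b := l),
    Nat.choose_symm_add (a := k) (b := j)] at e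
  refine ⟨q, Nat.eq_of_mul_eq_mul_left (Nat.choose_pos (show l ≤ k + l by omega)) ?_⟩
  rw [Nat.descFactorial_eq_factorial_mul_choose, Nat.descFactorial_eq_factorial_mul_choose]
  calc (k + l).choose l * (x * (j ! * l.choose j))
      = x * j ! * ((k + l).choose l * l.choose j) := by ring
    _ = x * j ! * ((k + l).choose (k + j) * (k + j).choose j) := by rw [e]
    _ = j ! * (k + j).choose j * (x * (k + l).choose (k + j)) := by ring
    _ = _ := by rw [hq]; ring

theorem prime_dvd_top {k l j p : ℕ} (hlk : l ≤ k) (hp : p.Prime) (hk : k < p) (hpn : p ≤ k + l - j) :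
    p ∣ (k + l - j).choose (l - j) :=
  hp.dvd_choose (by omega) (by omega) hpn

theorem prime_dvd_bottom {k l j p : ℕ} (hlk : l ≤ k) (hp : p.Prime) (hk : k + j < p) (hpn : p ≤ k + l) :
    p ∣ (k + l).choose (k + j) :=
  hp.dvd_choose hk (by omega) hpn

theorem prime_top {k l : ℕ} (hl : 1 ≤ l) (hlk : l ≤ k) (h : Clean k l) : (k + l).Prime := by
  by_contra hne
  have hd := top_rel hlk h 1 1 hl fun p hp hk hpn => dvd_mul_of_dvd_right (prime_dvd_top hlk hp hk
    (by have : p ≠ k + l := fun e => hne (e ▸ hp); omega)) _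
  simp at hd
  have := Nat.le_of_dvd (by omega) hd
  omega

theorem prime_bottom {k l : ℕ} (hl : 1 ≤ l) (hlk : l ≤ k) (h : Clean k l) : (k + 1).Prime := by
  by_contra hne
  have hd := bottom_rel hlk h 1 1 hl fun p hp hk hpn => dvd_mul_of_dvd_right (prime_dvd_bottom hlk hp
    (by have : p ≠ k + 1 := fun e => hne (e ▸ hp); omega) hpn) _
  simp at hd
  have := Nat.le_of_dvd (by omega) hd
  omega

theorem not_prime_even {m : ℕ} (h2 : 2 < m) (he : Even m) : ¬ m.Prime := fun hp => by
  rcases hp.eq_two_or_odd' with h | h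
  · omega
  · exact (Nat.not_even_iff_odd.2 h) he

theorem two_rel {k l : ℕ} (hl : 2 ≤ l) (hlk : l ≤ k) (h : Clean k l) (hk : Even k) (hn : Odd (k + l)) :
    (k + l - 1) ∣ l * (l - 1) ∧ (k + 2) ∣ l * (l - 1) := by
  constructor
  · have hd := top_rel hlk h 2 (k + l) hl fun p hp hkp hpn => by
      rcases eq_or_ne p (k + l) with rfl | h1
      · exact dvd_mul_right _ _
      · have h2 : p ≠ k + l - 1 := fun e => not_prime_even (by omega)
          (Nat.Odd.sub_odd hn odd_one) (e ▸ hp)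
        exact dvd_mul_of_dvd_right (prime_dvd_top hlk hp hkp (by omega)) _
    simp [Nat.descFactorial, mul_comm (k + l - 1)] at hd
    rw [mul_comm (l - 1)] at hd
    exact Nat.dvd_of_mul_dvd_mul_left (by omega) hd
  · have hd := bottom_rel hlk h 2 (k + 1) hl fun p hp hkp hpn => by
      rcases eq_or_ne p (k + 1) with rfl | h1
      · exact dvd_mul_right _ _
      · have h2 : p ≠ k + 2 := fun e => not_prime_even (by omega)
          (hk.add (by decide)) (e ▸ hp)
        exact dvd_mul_of_dvd_right (prime_dvd_bottom hlk hp (by omega) hpn) _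
    have e : (k + 2).descFactorial 2 = (k + 1) * (k + 2) := by simp [Nat.descFactorial]
    have e' : l.descFactorial 2 = l * (l - 1) := by simp [Nat.descFactorial, mul_comm]
    rw [e, e'] at hd
    exact Nat.dvd_of_mul_dvd_mul_left (by omega) hd

theorem four_rel {k l : ℕ} (hl : 4 ≤ l) (hlk : l ≤ k) (h : Clean k l) (hk : Even k) (hn : Odd (k + l)) :
    (k + l - 1) * (k + l - 3) ∣ l * (l - 1) * (l - 2) * (l - 3) ∧
      (k + 2) * (k + 4) ∣ l * (l - 1) * (l - 2) * (l - 3) := by
  have e' : l.descFactorial 4 = l * (l - 1) * (l - 2) * (l - 3) := by simp [Nat.descFactorial]; ring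
  constructor
  · have hd := top_rel hlk h 4 ((k + l) * (k + l - 2)) hl fun p hp hkp hpn => by
      have h2 : p ≠ k + l - 1 := fun e => not_prime_even (by omega) (Nat.Odd.sub_odd hn odd_one) (e ▸ hp)
      have h3 : p ≠ k + l - 3 := fun e => not_prime_even (by omega)
        (Nat.Odd.sub_odd hn (by decide)) (e ▸ hp)
      rcases eq_or_ne p (k + l) with rfl | h1
      · exact dvd_mul_of_dvd_left (dvd_mul_right _ _) _
      rcases eq_or_ne p (k + l - 2) with rfl | h4
      · exact dvd_mul_of_dvd_left (dvd_mul_left _ _) _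
      exact dvd_mul_of_dvd_right (prime_dvd_top hlk hp hkp (by omega)) _
    have e : (k + l).descFactorial 4 = (k + l) * (k + l - 2) * ((k + l - 1) * (k + l - 3)) := by
      simp [Nat.descFactorial]; ring
    rw [e, e'] at hd
    exact Nat.dvd_of_mul_dvd_mul_left (Nat.mul_pos (by omega) (by omega)) hd
  · have hd := bottom_rel hlk h 4 ((k + 1) * (k + 3)) hl fun p hp hkp hpn => by
      have h2 : p ≠ k + 2 := fun e => not_prime_even (by omega) (hk.add (by decide)) (e ▸ hp)
      have h3 : p ≠ k + 4 := fun e => not_prime_even (by omega) (hk.add (by decide)) (e ▸ hp)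
      rcases eq_or_ne p (k + 1) with rfl | h1
      · exact dvd_mul_of_dvd_left (dvd_mul_right _ _) _
      rcases eq_or_ne p (k + 3) with rfl | h4
      · exact dvd_mul_of_dvd_left (dvd_mul_left _ _) _
      exact dvd_mul_of_dvd_right (prime_dvd_bottom hlk hp (by omega) hpn) _
    have e : (k + 4).descFactorial 4 = (k + 1) * (k + 3) * ((k + 2) * (k + 4)) := by
      simp [Nat.descFactorial]; ring
    rw [e, e'] at hd
    exact Nat.dvd_of_mul_dvd_mul_left (Nat.mul_pos (by omega) (by omega)) hd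

/-- The exceptional number `7 = 4 + 3` is the only one. -/
theorem clean_eq {k l : ℕ} (hl : 2 ≤ l) (hlk : l ≤ k) (h : Clean k l) : k = 4 ∧ l = 3 := by
  have hn : Odd (k + l) := (prime_top (by omega) hlk h).odd_of_ne_two (by omega)
  have hk : Even k := by
    have := (prime_bottom (by omega) hlk h).odd_of_ne_two (by omega)
    rwa [Nat.odd_add_one, Nat.not_odd_iff_even] at this
  have hlodd : Odd l := by
    by_contra hne
    exact Nat.not_even_iff_odd.2 hn (hk.add (Nat.not_odd_iff_even.1 hne))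
  obtain ⟨ha, hb⟩ := two_rel hl hlk h hk hn
  obtain ⟨w, rfl⟩ : ∃ w, l = w + 3 := ⟨l - 3, by obtain ⟨i, hi⟩ := hlodd; omega⟩
  rcases Nat.eq_zero_or_pos w with rfl | hw
  · have h1 := Nat.le_of_dvd (by norm_num) hb
    obtain ⟨i, hi⟩ := hk
    exact ⟨by omega, rfl⟩
  obtain ⟨hA, hB⟩ := four_rel (by omega) hlk h hk hn
  simp only [show w + 3 - 1 = w + 2 by omega, show w + 3 - 2 = w + 1 by omega, Nat.add_sub_cancel,
    show k + (w + 3) - 1 = k + 2 + w by omega, show k + (w + 3) - 3 = k + w by omega] at ha hb hA hB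
  obtain ⟨w', hw'⟩ : Even w := by obtain ⟨i, hi⟩ := hlodd; exact ⟨i - 1, by omega⟩
  set M := (w + 3) * (w + 2) with hM
  set g := Nat.gcd (k + 2 + w) (k + 2) with hg
  have hlcm : Nat.lcm (k + 2 + w) (k + 2) ∣ M := Nat.lcm_dvd ha hb
  have hgl : g * Nat.lcm (k + 2 + w) (k + 2) = (k + 2 + w) * (k + 2) := Nat.gcd_mul_lcm _ _
  have hgw : g ∣ w := (Nat.dvd_add_right (Nat.gcd_dvd_right _ _)).1 (Nat.gcd_dvd_left _ _)
  have hg6 : g ∣ 6 := by
    have h1 : g ∣ w * (w + 5) + 6 := by
      rw [show w * (w + 5) + 6 = M by rw [hM]; ring]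
      exact (Nat.gcd_dvd_right _ _).trans hb
    exact (Nat.dvd_add_right (dvd_mul_of_dvd_left hgw _)).1 h1
  have hbig : 2 * M < (k + 2 + w) * (k + 2) := by rw [hM]; nlinarith
  obtain ⟨t, ht⟩ := hlcm
  have ht0 : t ≠ 0 := by rintro rfl; rw [hM] at ht; simp at ht
  have htb : 2 * t < g := by
    by_contra hle
    have h1 : (k + 2 + w) * (k + 2) ≤ 2 * M := by
      rw [← hgl, ht]
      calc g * Nat.lcm (k + 2 + w) (k + 2) ≤ 2 * t * Nat.lcm (k + 2 + w) (k + 2) :=
            Nat.mul_le_mul_right _ (by omega)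
        _ = _ := by ring
    omega
  have hgeven : 2 ∣ g := Nat.dvd_gcd (by obtain ⟨i, hi⟩ := hk; omega) (by obtain ⟨i, hi⟩ := hk; omega)
  have hg6' : g = 6 := by
    have := Nat.le_of_dvd (by norm_num) hg6
    obtain ⟨c, hc⟩ := hgeven
    interval_cases g <;> omega
  have hw6 : 6 ∣ w := hg6' ▸ hgw
  rw [hg6'] at hgl htb
  exfalso
  obtain rfl | rfl : t = 1 ∨ t = 2 := by omega
  · -- `(k + 2) (k + 2 + w) = 6 M`
    rw [mul_one] at ht
    rw [← ht, hM] at hgl
    have e : ((k : ℤ) + 2 - 2 * (w + 3)) * ((k : ℤ) + 2 + 3 * (w + 2)) = 0 := by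
      have : (6 * ((w + 3) * (w + 2)) : ℤ) = ((k : ℤ) + 2 + w) * (k + 2) := by exact_mod_cast hgl
      linear_combination -this
    have hk2 : k + 2 = 2 * (w + 3) := by
      rcases mul_eq_zero.1 e with e | e
      · omega
      · omega
    have h24 : w + 4 ∣ 24 := by
      have h1 : w + 4 ∣ (w + 3) * (w + 2) * (w + 1) * w := by
        exact (dvd_mul_of_dvd_right ⟨2, by omega⟩ _ : w + 4 ∣ (k + 2) * (k + 4)).trans hB
      rw [← ZMod.natCast_eq_zero_iff] at h1 ⊢
      have hz : (w : ZMod (w + 4)) + 4 = 0 := by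
        have := ZMod.natCast_self (w + 4); exact_mod_cast this
      push_cast at h1 ⊢
      linear_combination h1 - ((w : ZMod (w + 4)) ^ 3 + 2 * (w : ZMod (w + 4)) ^ 2 + 3 * w - 6) * hz
    have := Nat.le_of_dvd (by norm_num) h24
    obtain ⟨c, rfl⟩ := hw6
    have : c ≤ 3 := by omega
    interval_cases c <;> first | omega | norm_num at h24
  · -- `(k + 2) (k + 2 + w) = 3 M`
    have hq : (k + 2 + w) * (k + 2) = 3 * M := by rw [← hgl, ht]; ring
    have hAB : (k + w) * (k + 4) = (w + 1) * (3 * w + 14) := by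
      rw [hM] at hq; nlinarith
    have hd : 3 * (3 * w + 14) ∣ M * (w + 1) * w ^ 2 := by
      have h1 := mul_dvd_mul hA hB
      rw [show (k + 2 + w) * (k + w) * ((k + 2) * (k + 4)) =
          ((k + 2 + w) * (k + 2)) * ((k + w) * (k + 4)) by ring, hq, hAB,
        show 3 * M * ((w + 1) * (3 * w + 14)) = M * (w + 1) * (3 * (3 * w + 14)) by ring,
        show (w + 3) * (w + 2) * (w + 1) * w * ((w + 3) * (w + 2) * (w + 1) * w) =
          M * (w + 1) * (M * (w + 1) * w ^ 2) by rw [hM]; ring] at h1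
      exact Nat.dvd_of_mul_dvd_mul_left (by positivity) h1
    have he : 3 * w + 14 ∣ 2 ^ 5 * (5 * (7 ^ 2 * 11)) := by
      have h1 : 3 * w + 14 ∣ (w + 3) * (w + 2) * (w + 1) * w ^ 2 :=
        (dvd_mul_left (3 * w + 14) 3).trans hd
      rw [← ZMod.natCast_eq_zero_iff] at h1 ⊢
      have hz : 3 * (w : ZMod (3 * w + 14)) = -14 := by
        have := ZMod.natCast_self (3 * w + 14); push_cast at this; linear_combination this
      have h2 : (3 * (w : ZMod (3 * w + 14)) + 9) * (3 * w + 6) * (3 * w + 3) * (3 * w) ^ 2 = 0 := by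
        push_cast at h1; linear_combination 243 * h1
      rw [hz] at h2
      push_cast
      linear_combination -h2
    obtain ⟨d₁, r₁, hd₁, hr₁, e₁⟩ := Nat.dvd_mul.1 he
    obtain ⟨d₂, r₂, hd₂, hr₂, e₂⟩ := Nat.dvd_mul.1 hr₁
    obtain ⟨d₃, r₃, hd₃, hr₃, e₃⟩ := Nat.dvd_mul.1 hr₂
    have hd₁' : d₁ ∈ Nat.divisors (2 ^ 5) := Nat.mem_divisors.2 ⟨hd₁, by norm_num⟩
    have hd₂' : d₂ ∈ Nat.divisors 5 := Nat.mem_divisors.2 ⟨hd₂, by norm_num⟩
    have hd₃' : d₃ ∈ Nat.divisors (7 ^ 2) := Nat.mem_divisors.2 ⟨hd₃, by norm_num⟩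
    have hr₃' : r₃ ∈ Nat.divisors 11 := Nat.mem_divisors.2 ⟨hr₃, by norm_num⟩
    rw [show Nat.divisors (2 ^ 5) = {1, 2, 4, 8, 16, 32} by decide] at hd₁'
    rw [show Nat.divisors 5 = {1, 5} by decide] at hd₂'
    rw [show Nat.divisors (7 ^ 2) = {1, 7, 49} by decide] at hd₃'
    rw [show Nat.divisors 11 = {1, 11} by decide] at hr₃'
    simp only [Finset.mem_insert, Finset.mem_singleton] at hd₁' hd₂' hd₃' hr₃'
    have hsq : Nat.sqrt (12 * ((w + 3) * (w + 2)) + w * w) ^ 2 = 12 * ((w + 3) * (w + 2)) + w * w := by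
      have : 12 * ((w + 3) * (w + 2)) + w * w = (2 * (k + 2) + w) ^ 2 := by
        rw [hM] at hq; nlinarith
      rw [this, Nat.sqrt_eq']
    subst e₂ e₃
    have hwv : w = 6 ∨ w = 42 ∨ w = 54 ∨ w = 126 ∨ w = 252 ∨ w = 582 ∨ w = 714 ∨ w = 1302 ∨ w = 7182 := by
      rcases hd₁' with rfl | rfl | rfl | rfl | rfl | rfl <;> rcases hd₂' with rfl | rfl <;>
        rcases hd₃' with rfl | rfl | rfl <;> rcases hr₃' with rfl | rfl <;> omega
    rcases hwv with rfl | rfl | rfl | rfl | rfl | rfl | rfl | rfl | rfl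
    · have hk10 : k = 10 := by
        rw [hM] at hq; nlinarith
      subst hk10
      exact h 2 Nat.prime_two (by norm_num) (by decide)
    all_goals norm_num at hsq

end Cfsg.Agent.Lib.HallSym
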