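import Cfsg.Agent.Lib.HallSym.Blocks
import Cfsg.Agent.Lib.HallSym.Number

/-!
The shapes of Hall subgroups of symmetric and alternating groups.
-/

set_option autoImplicit false

namespace Cfsg.Agent.Lib.HallSym

open Equiv Equiv.Perm MulAction
open scoped Nat

universe u

variable {Ω : Type u} [Fintype Ω] [DecidableEq Ω]

theorem bound_fun {π : Set ℕ} {X : Subgroup (Perm Ω)} (hX : Hallish π X) {κ : Type} [Fintype κ]
    (f : Ω → κ) (hf : X ≤ fixFun f) {u w : Ω} (hne : u ≠ w) (huw : f u = f w) {r : ℕ} (hr : r ∈ π)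
    (hrp : r.Prime) :
    (Fintype.card Ω)!.factorization r ≤ ∑ i, ((Nat.card {x // f x = i})!).factorization r := by
  refine (hX.bound hf (swap_mem_fixFun f huw) (sign_swap hne) hr hrp).trans (le_of_eq ?_)
  rw [card_fixFun, Nat.factorization_prod fun i _ => Nat.factorial_ne_zero _, Finset.sum_apply']

theorem fact_add_le (a b r : ℕ) :
    (a !).factorization r + (b !).factorization r ≤ ((a + b)!).factorization r := by
  rw [← fact_mul (Nat.factorial_ne_zero _) (Nat.factorial_ne_zero _)]
  exact fact_le_of_dvd (Nat.factorial_ne_zero _) (Nat.factorial_mul_factorial_dvd_factorial_add a b) r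

theorem not_dvd_choose {a b p : ℕ} (hp : p.Prime)
    (h : ((a + b)!).factorization p ≤ (a !).factorization p + (b !).factorization p) :
    ¬ p ∣ (a + b).choose b := by
  intro hd
  rw [← Nat.add_choose_mul_factorial_mul_factorial,
    fact_mul (Nat.mul_ne_zero (Nat.choose_pos (by omega)).ne' (Nat.factorial_ne_zero _)) (Nat.factorial_ne_zero _),
    fact_mul (Nat.choose_pos (by omega)).ne' (Nat.factorial_ne_zero _)] at h
  have := (hp.dvd_iff_one_le_factorization (Nat.choose_pos (by omega : b ≤ a + b)).ne').1 hd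
  omega

/-- The intransitive case. -/
theorem intransitive {π : Set ℕ} {X : Subgroup (Perm Ω)} (hX : Hallish π X) (hnt : ¬ IsPretransitive X Ω)
    (h2 : ∃ r s : ℕ, r.Prime ∧ s.Prime ∧ r ≠ s ∧ r ∈ π ∧ s ∈ π ∧ r ≤ Fintype.card Ω ∧ s ≤ Fintype.card Ω)
    (IH : ∀ (α : Type u) [Fintype α] [DecidableEq α] (Y : Subgroup (Perm α)),
      Fintype.card α < Fintype.card Ω → Hallish π Y →
      (∃ r s : ℕ, r.Prime ∧ s.Prime ∧ r ≠ s ∧ r ∈ π ∧ s ∈ π ∧ r ≤ Fintype.card α ∧ s ≤ Fintype.card α) →
      Shape π Y) :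
    Shape π X := by
  classical
  obtain ⟨r, s, hr, hs, hrs, hrπ, hsπ, hrk, hsk⟩ := h2
  haveI : Nonempty Ω := Fintype.card_pos_iff.1 (lt_of_lt_of_le hr.pos hrk)
  let orb : Ω → Finset Ω := fun x => Finset.univ.filter fun y => ∃ g ∈ X, g x = y
  have mem_orb : ∀ {x y}, y ∈ orb x ↔ ∃ g ∈ X, g x = y := fun {x y} => by simp [orb]
  have self_mem : ∀ x, x ∈ orb x := fun x => mem_orb.2 ⟨1, one_mem X, rfl⟩
  have inv_orb : ∀ x, ∀ g ∈ X, ∀ z, (g z ∈ orb x ↔ z ∈ orb x) := fun x g hg z => by
    constructor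
    · intro h
      obtain ⟨g', hg', e⟩ := mem_orb.1 h
      exact mem_orb.2 ⟨g⁻¹ * g', mul_mem (inv_mem hg) hg', by rw [Perm.mul_apply, e]; simp⟩
    · intro h
      obtain ⟨g', hg', e⟩ := mem_orb.1 h
      exact mem_orb.2 ⟨g * g', mul_mem hg hg', by rw [Perm.mul_apply, e]⟩
  obtain ⟨x₀, -, hmax⟩ := Finset.exists_max_image Finset.univ (fun x => (orb x).card) Finset.univ_nonempty
  set D := orb x₀ with hD
  set k := D.card with hk
  set n := Fintype.card Ω with hn
  have hkn : k < n := by
    by_contra hle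
    have hDu : D = Finset.univ := Finset.eq_univ_of_card D (le_antisymm (Finset.card_le_univ D) (by omega))
    refine hnt ⟨fun x y => ?_⟩
    obtain ⟨g, hg, e⟩ := mem_orb.1 (show x ∈ orb x₀ by rw [← hD, hDu]; simp)
    obtain ⟨h, hh, e'⟩ := mem_orb.1 (show y ∈ orb x₀ by rw [← hD, hDu]; simp)
    refine ⟨⟨h * g⁻¹, mul_mem hh (inv_mem hg)⟩, ?_⟩
    show h (g⁻¹ x) = y
    rw [← e, Perm.inv_def, Equiv.symm_apply_apply, e']
  have hodd : ∀ q, q ∈ π → q.Prime → q ≠ 2 → q ≤ n → q ≤ k := by
    intro q hq hqp hq2 hqn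
    haveI := Fact.mk hqp
    obtain ⟨c, hc, hcc, hcs⟩ := exists_cycle_mem (hX.le_odd hq hqp hq2) hqn
    obtain ⟨x, hx⟩ : c.support.Nonempty := Finset.card_pos.1 (by rw [hcs]; exact hqp.pos)
    have hsub : c.support ⊆ orb x := fun y hy => by
      obtain ⟨i, hi⟩ := hcc.exists_zpow_eq (mem_support.1 hx) (mem_support.1 hy)
      exact mem_orb.2 ⟨c ^ i, zpow_mem hc i, hi⟩
    have := Finset.card_le_card hsub
    have := hmax x (Finset.mem_univ x)
    omega
  have hk3 : 3 ≤ k := by
    rcases eq_or_ne r 2 with rfl | hr2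
    · have := hodd s hsπ hs hrs.symm hsk
      have := hs.two_le
      omega
    · have := hodd r hrπ hr hr2 hrk
      have := hr.two_le
      omega
  have hle : ∀ q, q ∈ π → q.Prime → q ≤ n → q ≤ k := by
    intro q hq hqp hqn
    rcases eq_or_ne q 2 with rfl | hq2
    · omega
    · exact hodd q hq hqp hq2 hqn
  -- the group induced on the largest orbit
  let ρ := resHom (p := fun x => x ∈ D) (S := X) fun g hg x => inv_orb x₀ g hg x
  have hcard : Fintype.card {x // x ∈ D} = k := Fintype.card_coe D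
  haveI hYtr : IsPretransitive ρ.range {x // x ∈ D} := by
    refine ⟨fun x y => ?_⟩
    obtain ⟨g, hg, e⟩ := mem_orb.1 x.2
    obtain ⟨h, hh, e'⟩ := mem_orb.1 y.2
    refine ⟨⟨ρ ⟨h * g⁻¹, mul_mem hh (inv_mem hg)⟩, ⟨_, rfl⟩⟩, Subtype.ext ?_⟩
    show h (g⁻¹ x.1) = y.1
    rw [← e, Perm.inv_def, Equiv.symm_apply_apply, e']
  have hpiY : Cfsg.IsPiSubgroup π ρ.range := fun p hp hpd =>
    hX.1 p hp (hpd.trans (Subgroup.card_range_dvd _))
  have hY : Hallish π ρ.range := by
    refine ⟨hpiY, ?_⟩
    rcases Nat.lt_or_ge 1 (n - k) with hl | hl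
    · -- a transposition outside the orbit
      obtain ⟨u, hu, w, hw, hne⟩ := Finset.one_lt_card.1 (show 1 < Dᶜ.card by rw [Finset.card_compl]; omega)
      rw [Finset.mem_compl] at hu hw
      left
      intro q hq hqp
      rw [hcard]
      let f' : Ω → {x // x ∈ D} ⊕ PUnit.{u + 1} := fun x => if h : x ∈ D then Sum.inl ⟨x, h⟩ else Sum.inr ⟨⟩
      have hker : ρ.ker.map X.subtype ≤ fixFun f' := by
        rintro _ ⟨g, hg, rfl⟩ x
        by_cases hx : x ∈ D
        · have : g.1 x = x := congrArg Subtype.val (Equiv.congr_fun hg ⟨x, hx⟩)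
          show f' (g.1 x) = f' x
          rw [this]
        · have : g.1 x ∉ D := fun h => hx ((inv_orb x₀ g.1 g.2 x).1 h)
          show f' (g.1 x) = f' x
          simp [f', hx, this]
      have hfix : Nat.card (fixFun f') = (n - k)! := by
        rw [card_fixFun, Fintype.prod_sum_type, Finset.prod_eq_one fun z _ => ?_, one_mul]
        · rw [Finset.univ_unique, Finset.prod_singleton,
            Nat.card_congr (Equiv.subtypeEquivRight (q := fun x => x ∈ Dᶜ) fun x => ?_),
            Nat.card_eq_fintype_card, Fintype.card_coe, Finset.card_compl]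
          by_cases hx : x ∈ D <;> simp [f', hx]
        · rw [Nat.factorial_eq_one]
          refine Finite.card_le_one_iff_subsingleton.2 ⟨fun x y => Subtype.ext ?_⟩
          have hx := x.2
          have hy := y.2
          by_cases h1 : x.1 ∈ D <;> simp [f', h1] at hx
          by_cases h2 : y.1 ∈ D <;> simp [f', h2] at hy
          exact (congrArg Subtype.val (hx.trans hy.symm) :)
      have hXc : Nat.card X = Nat.card ρ.range * Nat.card ↥(ρ.ker.map X.subtype) := by
        rw [Subgroup.card_map_of_injective X.subtype_injective, ← Subgroup.card_mul_index ρ.ker,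
          Subgroup.index_ker, mul_comm]
      have hmain : (n !).factorization q ≤ (Nat.card ρ.range * (n - k)!).factorization q := by
        have hne0 : Nat.card ρ.range * (n - k)! ≠ 0 := Nat.mul_ne_zero Nat.card_pos.ne' (Nat.factorial_ne_zero _)
        rcases hX.2 with h | ⟨hA, h⟩ <;> refine (h q hq hqp).trans (fact_le_of_dvd hne0 ?_ q)
        · rw [hXc, ← hfix]
          exact Nat.mul_dvd_mul_left _ (Subgroup.card_dvd_of_le hker)
        · rw [hXc, mul_left_comm, ← hfix]
          refine Nat.mul_dvd_mul_left _ (two_mul_card_dvd ?_ hker (swap_mem_fixFun f' (u := u) (w := w) ?_) (sign_swap hne))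
          · rintro _ ⟨g, -, rfl⟩
            exact hA g.2
          · simp [f', hu, hw]
      rw [fact_mul Nat.card_pos.ne' (Nat.factorial_ne_zero _)] at hmain
      have hlow := fact_add_le k (n - k) q
      rw [Nat.add_sub_cancel' hkn.le] at hlow
      omega
    · -- a single fixed point outside
      have hout : ∀ g ∈ X, ∀ x, x ∉ D → g x = x := fun g hg x hx => by
        have h1 : g x ∉ D := fun h => hx ((inv_orb x₀ g hg x).1 h)
        exact Finset.card_le_one.1 (show Dᶜ.card ≤ 1 by rw [Finset.card_compl]; omega) _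
          (Finset.mem_compl.2 h1) _ (Finset.mem_compl.2 hx)
      have hinj : Function.Injective ρ := fun g h e => by
        refine Subtype.ext (Perm.ext fun x => ?_)
        by_cases hx : x ∈ D
        · exact congrArg Subtype.val (Equiv.congr_fun e ⟨x, hx⟩)
        · rw [hout g.1 g.2 x hx, hout h.1 h.2 x hx]
      have hc : Nat.card ρ.range = Nat.card X := (Nat.card_congr (MonoidHom.ofInjective hinj).toEquiv).symm
      have hmono : ∀ q, (k !).factorization q ≤ (n !).factorization q := fun q =>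
        fact_le_of_dvd (Nat.factorial_ne_zero _) (Nat.factorial_dvd_factorial hkn.le) q
      rcases hX.2 with h | ⟨hA, h⟩
      · left; intro q hq hqp
        rw [hcard, hc]; exact (hmono q).trans (h q hq hqp)
      · right
        refine ⟨?_, fun q hq hqp => by rw [hcard, hc]; exact (hmono q).trans (h q hq hqp)⟩
        rintro _ ⟨g, rfl⟩
        rw [mem_alt_iff]
        have key := sign_subtypePerm (p := fun x => x ∈ D) g.1 (fun x => inv_orb x₀ g.1 g.2 x)
          fun x hx => by by_contra hxD; exact hx (hout g.1 g.2 x hxD)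
        convert key.trans (hA g.2)
        rfl
  have hIH := IH {x // x ∈ D} ρ.range (by rw [hcard]; exact hkn) hY
    ⟨r, s, hr, hs, hrs, hrπ, hsπ, by rw [hcard]; exact hle r hrπ hr hrk, by rw [hcard]; exact hle s hsπ hs hsk⟩
  haveI : Nontrivial {x // x ∈ D} := Fintype.one_lt_card_iff_nontrivial.1 (by omega)
  have hcases : (∀ p : ℕ, p.Prime → p ≤ k → p ∈ π) ∨
      (k = 8 ∧ ∀ p : ℕ, p.Prime → p ≤ k → (p ∈ π ↔ p = 2 ∨ p = 3)) := by
    rcases hIH with h | ⟨-, -, z, hz⟩ | ⟨h7, -, E, hE, hinv⟩ | ⟨h8, hπ, -, -⟩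
    · rw [hcard] at h; exact Or.inl h
    · exfalso
      obtain ⟨y, hy⟩ := exists_ne z
      obtain ⟨g, hg⟩ := MulAction.exists_smul_eq ρ.range z y
      exact hy (hg.symm.trans (hz g.1 g.2))
    · exfalso
      obtain ⟨y, hy⟩ := Finset.card_pos.1 (show 0 < E.card by omega)
      obtain ⟨y', -, hy'⟩ := Finset.exists_mem_notMem_of_card_lt_card (s := E)
        (t := Finset.univ) (by rw [Finset.card_univ]; omega)
      obtain ⟨g, hg⟩ := MulAction.exists_smul_eq ρ.range y y'
      exact hy' (by have := (hinv g.1 g.2 y).2 hy; rwa [show g.1 y = y' from hg] at this)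
    · rw [hcard] at h8 hπ; exact Or.inr ⟨h8, hπ⟩
  obtain ⟨h2π, h3π⟩ : 2 ∈ π ∧ 3 ∈ π := by
    rcases hcases with h | ⟨h8, h⟩
    · exact ⟨h 2 Nat.prime_two (by omega), h 3 Nat.prime_three (by omega)⟩
    · exact ⟨(h 2 Nat.prime_two (by omega)).2 (Or.inl rfl), (h 3 Nat.prime_three (by omega)).2 (Or.inr rfl)⟩
  obtain ⟨u, hu, w, hw, hne⟩ := Finset.one_lt_card.1 (show 1 < D.card by omega)
  -- a second orbit
  have hsecond : ∀ y, y ∉ D → ∀ q, q ∈ π → q.Prime →
      ((k + (orb y).card)!).factorization q ≤ (k !).factorization q + ((orb y).card !).factorization q := by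
    intro y hy q hq hqp
    set E := orb y with hE
    have hdis : ∀ x, x ∈ D → x ∉ E := fun x hxD hxE => by
      obtain ⟨g, hg, e⟩ := mem_orb.1 hxE
      exact hy ((inv_orb x₀ g hg y).1 (e ▸ hxD))
    let f : Ω → Fin 3 := fun x => if x ∈ D then 0 else if x ∈ E then 1 else 2
    have hb := bound_fun hX f (fun g hg x => by
      simp only [f, hD, hE, inv_orb x₀ g hg x, inv_orb y g hg x]) hne (by simp [f, hu, hw]) hq hqp
    rw [Fin.sum_univ_three] at hb
    have c0 : Nat.card {x // f x = 0} = k := by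
      rw [hk, ← Fintype.card_coe D, ← Nat.card_eq_fintype_card]
      refine Nat.card_congr (Equiv.subtypeEquivRight fun x => ?_)
      by_cases h : x ∈ D <;> by_cases h' : x ∈ E <;> simp [f, h, h']
    have c1 : Nat.card {x // f x = 1} = E.card := by
      rw [← Fintype.card_coe E, ← Nat.card_eq_fintype_card]
      refine Nat.card_congr (Equiv.subtypeEquivRight fun x => ?_)
      by_cases h : x ∈ D
      · simp [f, h, hdis x h]
      · by_cases h' : x ∈ E <;> simp [f, h, h']
    have c2 : Nat.card {x // f x = 2} = n - (k + E.card) := by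
      rw [Nat.card_congr (Equiv.subtypeEquivRight (q := fun x => x ∈ (D ∪ E)ᶜ) fun x => ?_),
        Nat.card_eq_fintype_card, Fintype.card_coe, Finset.card_compl,
        Finset.card_union_of_disjoint (Finset.disjoint_left.2 hdis)]
      by_cases h : x ∈ D <;> by_cases h' : x ∈ E <;> simp [f, h, h']
    rw [c0, c1, c2, ← hn] at hb
    have hsum : k + E.card ≤ n := by
      rw [hk, ← Finset.card_union_of_disjoint (Finset.disjoint_left.2 hdis)]
      exact Finset.card_le_univ _
    have hlow := fact_add_le (k + E.card) (n - (k + E.card)) q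
    rw [Nat.add_sub_cancel' hsum] at hlow
    omega
  have hl : ∀ y, y ∉ D → (∀ p : ℕ, p.Prime → p ≤ k → p ∈ π) ∧ ((orb y).card = 1 ∨ k = 4 ∧ (orb y).card = 3) := by
    intro y hy
    have hlk : (orb y).card ≤ k := hmax y (Finset.mem_univ y)
    have hl1 : 1 ≤ (orb y).card := Finset.card_pos.2 ⟨y, self_mem y⟩
    have hC := fun q hq (hqp : q.Prime) => not_dvd_choose hqp (hsecond y hy q hq hqp)
    rcases hcases with hall | ⟨h8, -⟩
    · refine ⟨hall, ?_⟩
      rcases eq_or_lt_of_le hl1 with h1 | h1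
      · exact Or.inl h1.symm
      · exact Or.inr (clean_eq h1 hlk fun p hp hpk => hC p (hall p hp hpk) hp)
    · exfalso
      have h3 := hC 3 h3π Nat.prime_three
      rw [h8] at h3 hlk
      generalize (orb y).card = l at h3 hl1 hlk
      interval_cases l <;> exact h3 (by decide)
  obtain ⟨y, -, hy⟩ := Finset.exists_mem_notMem_of_card_lt_card (s := D) (t := Finset.univ)
    (by rw [Finset.card_univ]; omega)
  obtain ⟨hall, hly⟩ := hl y hy
  by_cases hz : ∃ z, z ∉ D ∧ z ∉ orb y
  · -- three orbits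
    exfalso
    obtain ⟨z, hzD, hzy⟩ := hz
    obtain ⟨-, hlz⟩ := hl z hzD
    set E := orb y with hE
    set G := orb z with hG
    have hdis : ∀ x, x ∈ D → x ∉ E ∧ x ∉ G := fun x hxD => by
      constructor <;> intro hxE <;> obtain ⟨g, hg, e⟩ := mem_orb.1 hxE
      · exact hy ((inv_orb x₀ g hg y).1 (e ▸ hxD))
      · exact hzD ((inv_orb x₀ g hg z).1 (e ▸ hxD))
    have hdis' : ∀ x, x ∈ E → x ∉ G := fun x hxE hxG => by
      obtain ⟨g, hg, e⟩ := mem_orb.1 hxG
      exact hzy ((inv_orb y g hg z).1 (e ▸ hxE))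
    let f : Ω → Fin 4 := fun x => if x ∈ D then 0 else if x ∈ E then 1 else if x ∈ G then 2 else 3
    have hb := bound_fun hX f (fun g hg x => by
      simp only [f, hD, hE, hG, inv_orb x₀ g hg x, inv_orb y g hg x, inv_orb z g hg x]) hne
      (by simp [f, hu, hw]) h2π Nat.prime_two
    rw [Fin.sum_univ_four] at hb
    have c0 : Nat.card {x // f x = 0} = k := by
      rw [hk, ← Fintype.card_coe D, ← Nat.card_eq_fintype_card]
      refine Nat.card_congr (Equiv.subtypeEquivRight fun x => ?_)
      by_cases h : x ∈ D <;> by_cases h' : x ∈ E <;> by_cases h'' : x ∈ G <;> simp [f, h, h', h'']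
    have c1 : Nat.card {x // f x = 1} = E.card := by
      rw [← Fintype.card_coe E, ← Nat.card_eq_fintype_card]
      refine Nat.card_congr (Equiv.subtypeEquivRight fun x => ?_)
      by_cases h : x ∈ D
      · simp [f, h, (hdis x h).1]
      · by_cases h' : x ∈ E <;> by_cases h'' : x ∈ G <;> simp [f, h, h', h'']
    have c2 : Nat.card {x // f x = 2} = G.card := by
      rw [← Fintype.card_coe G, ← Nat.card_eq_fintype_card]
      refine Nat.card_congr (Equiv.subtypeEquivRight fun x => ?_)
      by_cases h : x ∈ D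
      · simp [f, h, (hdis x h).2]
      · by_cases h' : x ∈ E
        · simp [f, h, h', hdis' x h']
        · by_cases h'' : x ∈ G <;> simp [f, h, h', h'']
    have c3 : Nat.card {x // f x = 3} = n - (k + E.card + G.card) := by
      rw [Nat.card_congr (Equiv.subtypeEquivRight (q := fun x => x ∈ (D ∪ E ∪ G)ᶜ) fun x => ?_),
        Nat.card_eq_fintype_card, Fintype.card_coe, Finset.card_compl,
        Finset.card_union_of_disjoint (Finset.disjoint_left.2 fun x hx hxG => ?_),
        Finset.card_union_of_disjoint (Finset.disjoint_left.2 fun x hx => (hdis x hx).1)]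
      · rcases Finset.mem_union.1 hx with h | h
        · exact (hdis x h).2 hxG
        · exact hdis' x h hxG
      · by_cases h : x ∈ D <;> by_cases h' : x ∈ E <;> by_cases h'' : x ∈ G <;> simp [f, h, h', h'']
    have hsum : k + E.card + G.card ≤ n := by
      have hdu : Disjoint (D ∪ E) G := Finset.disjoint_left.2 fun x hx hxG => by
        rcases Finset.mem_union.1 hx with h | h
        · exact (hdis x h).2 hxG
        · exact hdis' x h hxG
      rw [hk, ← Finset.card_union_of_disjoint (Finset.disjoint_left.2 fun x hx => (hdis x hx).1),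
        ← Finset.card_union_of_disjoint hdu]
      exact Finset.card_le_univ _
    rw [c0, c1, c2, c3, ← hn] at hb
    have hlow := fact_add_le (k + E.card + G.card) (n - (k + E.card + G.card)) 2
    rw [Nat.add_sub_cancel' hsum] at hlow
    have hkey : ((k + E.card + G.card)!).factorization 2 ≤
        (k ! * E.card ! * G.card !).factorization 2 := by
      rw [fact_mul (Nat.mul_ne_zero (Nat.factorial_ne_zero _) (Nat.factorial_ne_zero _)) (Nat.factorial_ne_zero _),
        fact_mul (Nat.factorial_ne_zero _) (Nat.factorial_ne_zero _)]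
      omega
    have key : ∀ a b c, 2 ∣ c → a = b * c → b ≠ 0 → c ≠ 0 → b.factorization 2 < a.factorization 2 := by
      intro a b c hc hab hb0 hc0
      rw [hab, fact_mul hb0 hc0]
      have := (Nat.prime_two.dvd_iff_one_le_factorization hc0).1 hc
      omega
    rcases hly with he | ⟨hk4, he⟩ <;> rcases hlz with hg | ⟨hk4', hg⟩ <;> rw [he, hg] at hkey
    · refine absurd hkey (not_le.2 (key _ _ ((k + 2) * (k + 1)) ?_ ?_ ?_ ?_))
      · rw [mul_comm]; exact even_iff_two_dvd.1 (Nat.even_mul_succ_self (k + 1))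
      · rw [show k + 1 + 1 = k + 2 from rfl, Nat.factorial_succ (k + 1), Nat.factorial_succ k]; simp; ring
      · positivity
      · positivity
    · rw [hk4'] at hkey
      exact absurd hkey (not_le.2 (key _ _ 280 (by norm_num) (by decide) (by decide) (by norm_num)))
    · rw [hk4] at hkey
      exact absurd hkey (not_le.2 (key _ _ 280 (by norm_num) (by decide) (by decide) (by norm_num)))
    · rw [hk4] at hkey
      exact absurd hkey (not_le.2 (key _ _ 4200 (by norm_num) (by decide) (by decide) (by norm_num)))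
  push Not at hz
  set E := orb y with hE
  have hdis : ∀ x, x ∈ D → x ∉ E := fun x hxD hxE => by
    obtain ⟨g, hg, e⟩ := mem_orb.1 hxE
    exact hy ((inv_orb x₀ g hg y).1 (e ▸ hxD))
  have hn' : n = k + E.card := by
    rw [hk, ← Finset.card_union_of_disjoint (Finset.disjoint_left.2 hdis), hn, ← Finset.card_univ]
    refine congrArg Finset.card (Finset.ext fun x => ?_)
    simp only [Finset.mem_univ, Finset.mem_union, true_iff]
    by_cases h : x ∈ D
    · exact Or.inl h
    · exact Or.inr (hz x h)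
  rcases hly with he | ⟨hk4, he⟩
  · -- a point stabiliser
    have hnp : n.Prime := by
      have h1 : n ≠ 1 := by omega
      by_contra hnp
      have hq := Nat.minFac_prime h1
      have hlt : n.minFac ≤ k := by
        have := Nat.minFac_le (show 0 < n by omega)
        have : n.minFac ≠ n := fun e => hnp (e ▸ hq)
        omega
      have := not_dvd_choose hq (hsecond y hy _ (hall _ hq hlt) hq)
      rw [he, Nat.choose_one_right, ← he, ← hn'] at this
      exact this (Nat.minFac_dvd n)
    refine Or.inr (Or.inl ⟨hn ▸ hnp, fun p hp hpn => ⟨fun hpπ => ?_, fun hlt => hall p hp (by omega)⟩, y, fun g hg => ?_⟩)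
    · have := hle p hpπ hp hpn; omega
    · obtain ⟨z, hz'⟩ := Finset.card_eq_one.1 he
      have h1 : g y ∈ E := mem_orb.2 ⟨g, hg, rfl⟩
      have h2 : y ∈ E := self_mem y
      rw [hz', Finset.mem_singleton] at h1 h2
      rw [h1, ← h2]
  · refine Or.inr (Or.inr (Or.inl ⟨by omega, fun p hp hpn => ⟨fun hpπ => ?_, ?_⟩, D, hk ▸ hk4, fun g hg x => inv_orb x₀ g hg x⟩))
    · have := hle p hpπ hp hpn
      have := hp.two_le
      have : p ≠ 4 := fun e => by subst e; norm_num at hp
      omega
    · rintro (rfl | rfl) <;> assumption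

/-- The shapes of the Hall subgroups. -/
theorem hall_shape {π : Set ℕ} : ∀ (Ω : Type u) [Fintype Ω] [DecidableEq Ω] (X : Subgroup (Perm Ω)),
    Hallish π X →
    (∃ r s : ℕ, r.Prime ∧ s.Prime ∧ r ≠ s ∧ r ∈ π ∧ s ∈ π ∧ r ≤ Fintype.card Ω ∧ s ≤ Fintype.card Ω) →
    Shape π X := by
  suffices H : ∀ k, ∀ (Ω : Type u) [Fintype Ω] [DecidableEq Ω] (X : Subgroup (Perm Ω)),
      Fintype.card Ω = k → Hallish π X →
      (∃ r s : ℕ, r.Prime ∧ s.Prime ∧ r ≠ s ∧ r ∈ π ∧ s ∈ π ∧ r ≤ Fintype.card Ω ∧ s ≤ Fintype.card Ω) →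
      Shape π X from fun Ω _ _ X hX h2 => H _ Ω X rfl hX h2
  intro k
  induction k using Nat.strong_induction_on with
  | _ k ih =>
    intro Ω _ _ X hk hX h2
    have IH : ∀ (α : Type u) [Fintype α] [DecidableEq α] (Y : Subgroup (Perm α)),
        Fintype.card α < Fintype.card Ω → Hallish π Y →
        (∃ r s : ℕ, r.Prime ∧ s.Prime ∧ r ≠ s ∧ r ∈ π ∧ s ∈ π ∧ r ≤ Fintype.card α ∧ s ≤ Fintype.card α) →
        Shape π Y := fun α _ _ Y hlt hY hY2 => ih _ (hk ▸ hlt) α Y rfl hY hY2
    by_cases htr : IsPretransitive X Ω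
    · by_cases hpr : IsPreprimitive X Ω
      · exact Or.inl fun p hp hpk => primitive_all hX hpr h2 hp hpk
      · exact imprimitive hX htr hpr h2 IH
    · exact intransitive hX htr h2 IH

end Cfsg.Agent.Lib.HallSym
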