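import Cfsg.Agent.Lib.HallSym.Basic
import Cfsg.Agent.Lib.Char.Burnside
import Cfsg.Agent.Lib.SmallSimple.PrimeDegree

/-!
Primitive Hall subgroups of symmetric and alternating groups.
-/

set_option autoImplicit false

namespace Cfsg.Agent.Lib.HallSym

open Equiv Equiv.Perm MulAction
open scoped Nat

universe u

variable {Ω : Type u} [Fintype Ω] [DecidableEq Ω]

theorem multi_of_cycle {X : Subgroup (Perm Ω)} (hprim : IsPreprimitive X Ω) {g : Perm Ω} (hc : g.IsCycle)
    (hg : g ∈ X) (hp : g.support.card.Prime) (hlt : g.support.card < Fintype.card Ω) :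
    IsMultiplyPretransitive X Ω (Fintype.card Ω - g.support.card + 1) := by
  classical
  obtain ⟨n, hn⟩ : ∃ n, Fintype.card Ω = g.support.card + (n + 1) := ⟨Fintype.card Ω - g.support.card - 1, by omega⟩
  have hsc : Set.ncard ((g.support)ᶜ : Set Ω) = n + 1 := by
    apply Nat.add_left_cancel
    rw [Set.ncard_add_ncard_compl, Set.ncard_coe_finset, Nat.card_eq_fintype_card, hn]
  rw [show Fintype.card Ω - g.support.card + 1 = n + 2 by omega]
  have h2 := hp.two_le
  suffices IsMultiplyPreprimitive X Ω (n + 2) from IsMultiplyPreprimitive.isMultiplyPretransitive ..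
  apply hprim.isMultiplyPreprimitive hsc
  · rw [Nat.card_eq_fintype_card, hn]; omega
  have := isPretransitive_of_isCycle_mem hc hg
  apply IsPreprimitive.of_prime_card
  rw [Nat.card_eq_fintype_card, Fintype.card_subtype]
  have e : (Finset.univ.filter fun x => x ∈ SubMulAction.ofFixingSubgroup X ((g.support : Set Ω)ᶜ)) =
      g.support := by
    ext x
    simp [SubMulAction.mem_ofFixingSubgroup_iff]
  rw [e]
  exact hp

omit [DecidableEq Ω] in
theorem desc_dvd {X : Subgroup (Perm Ω)} {j m : ℕ} (h : IsMultiplyPretransitive X Ω m) (hjm : j ≤ m)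
    (hm : m ≤ Fintype.card Ω) : (Fintype.card Ω).descFactorial j ∣ Nat.card X := by
  classical
  haveI := h
  have hI : IsPretransitive X (Fin j ↪ Ω) :=
    MulAction.isMultiplyPretransitive_of_le' hjm (by simpa using hm)
  obtain ⟨x⟩ : Nonempty (Fin j ↪ Ω) := Function.Embedding.nonempty_of_card_le (by
    rw [Fintype.card_fin]; omega)
  have := @index_stabilizer_of_transitive X (Fin j ↪ Ω) _ _ x hI
  rw [Nat.card_eq_fintype_card, Fintype.card_embedding_eq, Fintype.card_fin] at this
  exact this ▸ Subgroup.index_dvd_card _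

/-- A solvable transitive group of prime degree. -/
theorem solvable_prime_degree {p : ℕ} [hp : Fact p.Prime] (hk : Fintype.card Ω = p)
    (X : Subgroup (Perm Ω)) [IsPretransitive X Ω] [Group.IsSolvable X] :
    Nat.card X ∣ p * (p - 1) ∧ (p ≠ 2 → X ≤ alternatingGroup Ω → 2 * Nat.card X ∣ p * (p - 1)) := by
  classical
  have : Nontrivial Ω := Fintype.one_lt_card_iff_nontrivial.1 (by rw [hk]; exact hp.out.one_lt)
  haveI : IsPreprimitive X Ω := IsPreprimitive.of_prime_card (by rw [Nat.card_eq_fintype_card, hk]; exact hp.out)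
  obtain ⟨a⟩ : Nonempty Ω := inferInstance
  have hpX : p ∣ Nat.card X := by
    rw [← hk, ← Nat.card_eq_fintype_card, ← index_stabilizer_of_transitive (G := X) a]
    exact Subgroup.index_dvd_card _
  haveI : Nontrivial X := Finite.one_lt_card_iff_nontrivial.1
    (hp.out.one_lt.trans_le (Nat.le_of_dvd Nat.card_pos hpX))
  obtain ⟨A, hA, hne, hcomm⟩ : ∃ A : Subgroup X, A.Normal ∧ A ≠ ⊥ ∧ IsMulCommutative A := by
    obtain ⟨n, hn⟩ := (Group.isSolvable_def X).1 inferInstance
    let m := Nat.find (⟨n, hn⟩ : ∃ n, derivedSeries X n = ⊥)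
    have hm : derivedSeries X m = ⊥ := Nat.find_spec (⟨n, hn⟩ : ∃ n, derivedSeries X n = ⊥)
    obtain ⟨i, hi⟩ : ∃ i, m = i + 1 := Nat.exists_eq_succ_of_ne_zero fun h0 => by
      rw [h0] at hm; exact top_ne_bot (α := Subgroup X) hm
    refine ⟨derivedSeries X i, derivedSeries_normal X i,
      Nat.find_min (⟨n, hn⟩ : ∃ n, derivedSeries X n = ⊥) (show i < m by omega), ⟨⟨fun x y => ?_⟩⟩⟩
    rw [hi, derivedSeries_succ, Subgroup.commutator_eq_bot_iff_le_centralizer] at hm
    exact Subtype.ext ((Subgroup.mem_centralizer_iff.1 (hm x.2) y.1 y.2).symm)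
  haveI : IsPretransitive A Ω := IsQuasiPreprimitive.isPretransitive_of_normal (G := X) (N := A) fun h => hne (by
    rw [Subgroup.eq_bot_iff_forall]
    intro x hx
    exact Subtype.ext (Perm.ext fun b => Set.eq_univ_iff_forall.1 h b ⟨x, hx⟩))
  have hpA : p ∣ Nat.card A := by
    rw [← hk, ← Nat.card_eq_fintype_card, ← index_stabilizer_of_transitive (G := A) a]
    exact Subgroup.index_dvd_card _
  -- the Sylow subgroup of the abelian group is normal in `X`
  obtain ⟨P⟩ : Nonempty (Sylow p A) := inferInstance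
  haveI hPn : (P : Subgroup A).Normal := Subgroup.normal_of_comm _
  haveI hPc : (P : Subgroup A).Characteristic := P.characteristic_of_normal hPn
  haveI hPX : ((P : Subgroup A).map A.subtype).Normal := ConjAct.normal_of_characteristic_of_normal
  let Q : Subgroup (Perm Ω) := ((P : Subgroup A).map A.subtype).map X.subtype
  have hQ : Nat.card Q = p ^ (Nat.card (Perm Ω)).factorization p := by
    rw [Subgroup.card_map_of_injective X.subtype_injective,
      Subgroup.card_map_of_injective A.subtype_injective, P.card_eq_multiplicity]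
    congr 1
    have hG : Nat.card (Perm Ω) = p ! := by rw [Nat.card_perm, Nat.card_eq_fintype_card, hk]
    have h1 : (Nat.card A).factorization p ≤ (p !).factorization p :=
      fact_le_of_dvd (Nat.factorial_ne_zero p)
        (hG ▸ A.card_subgroup_dvd_card.trans X.card_subgroup_dvd_card) p
    have h2 : 1 ≤ (Nat.card A).factorization p :=
      (hp.out.dvd_iff_one_le_factorization Nat.card_pos.ne').1 hpA
    have h3 : (p !).factorization p = 1 := by
      rw [← Nat.mul_factorial_pred hp.out.ne_zero, fact_mul hp.out.ne_zero (Nat.factorial_ne_zero _),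
        hp.out.factorization_self, Nat.factorization_eq_zero_of_not_dvd fun h => by
          have h4 := hp.out.dvd_factorial.1 h
          have := hp.out.one_lt
          omega]
    rw [hG, h3]
    omega
  let S : Sylow p (Perm Ω) := Sylow.ofCard Q hQ
  have hXN : X ≤ Subgroup.normalizer ((S : Subgroup (Perm Ω)) : Set (Perm Ω)) := by
    show X ≤ Subgroup.normalizer (Q : Set (Perm Ω))
    intro x hx
    rw [Subgroup.mem_normalizer_iff]
    intro h
    constructor
    · rintro ⟨y, hy, rfl⟩
      exact ⟨⟨x, hx⟩ * y * ⟨x, hx⟩⁻¹, hPX.conj_mem y hy _, rfl⟩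
    · rintro ⟨y, hy, e⟩
      refine ⟨⟨x, hx⟩⁻¹ * y * ⟨x, hx⟩, by
        have := hPX.conj_mem y hy ⟨x, hx⟩⁻¹
        rwa [inv_inv] at this, ?_⟩
      show x⁻¹ * (y : Perm Ω) * x = h
      rw [show (y : Perm Ω) = x * h * x⁻¹ from e]; group
  refine ⟨?_, fun hp2 hXA => ?_⟩
  · rw [← Cfsg.Agent.Lib.SmallSimple.card_normalizer_sylow_perm (Or.inl hk) S]
    exact Subgroup.card_dvd_of_le hXN
  · have h := Cfsg.Agent.Lib.SmallSimple.two_mul_card_normalizer_inf_alternating hp2 S
    rw [Cfsg.Agent.Lib.SmallSimple.card_normalizer_sylow_perm (Or.inl hk) S] at h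
    rw [← h]
    exact Nat.mul_dvd_mul_left 2 (Subgroup.card_dvd_of_le (le_inf hXN hXA))

/-- A primitive Hall subgroup: every prime up to the degree lies in `π`. -/
theorem primitive_all {π : Set ℕ} {X : Subgroup (Perm Ω)} (hX : Hallish π X) (hprim : IsPreprimitive X Ω)
    (h2 : ∃ r s : ℕ, r.Prime ∧ s.Prime ∧ r ≠ s ∧ r ∈ π ∧ s ∈ π ∧ r ≤ Fintype.card Ω ∧ s ≤ Fintype.card Ω)
    {p : ℕ} (hp : p.Prime) (hpk : p ≤ Fintype.card Ω) : p ∈ π := by
  classical
  set k := Fintype.card Ω with hk
  obtain ⟨r, s, hr, hs, hrs, hrπ, hsπ, hrk, hsk⟩ := h2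
  have hk3 : 3 ≤ k := by
    have := hr.two_le
    have := hs.two_le
    omega
  have hcyc : ∀ t, t ∈ π → t.Prime → t ≠ 2 → t ≤ k → ∃ c ∈ X, c.IsCycle ∧ c.support.card = t :=
    fun t ht htp ht2 htk => haveI := Fact.mk htp; exists_cycle_mem (hX.le_odd ht htp ht2) htk
  have hpi : ∀ q : ℕ, q.Prime → q ∣ Nat.card X → q ∈ π := hX.1
  by_cases h2π : 2 ∈ π
  swap
  · exfalso
    wlog hlt : r < s generalizing r s
    · exact this s r hs hr (Ne.symm hrs) hsπ hrπ hsk hrk (by omega)
    obtain ⟨c, hc, hcc, hcs⟩ := hcyc r hrπ hr (fun e => h2π (e ▸ hrπ)) hrk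
    have hm := multi_of_cycle hprim hcc hc (hcs ▸ hr) (by omega)
    have := hr.two_le
    have := desc_dvd (j := 2) hm (by omega) (by omega)
    refine h2π (hpi 2 Nat.prime_two (Dvd.dvd.trans ?_ this))
    rw [Nat.descFactorial_succ, Nat.descFactorial_one]
    exact even_iff_two_dvd.1 (by rw [mul_comm]; exact Nat.even_mul_pred_self _)
  rcases hX.2 with hbig | hev
  · -- transpositions
    obtain ⟨c, hc, hcc, hcs⟩ := haveI := Fact.mk Nat.prime_two
      exists_cycle_mem (hbig 2 h2π Nat.prime_two) (by omega)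
    have htop := subgroup_eq_top_of_isPreprimitive_of_isSwap_mem hprim c (card_support_eq_two.1 hcs) hc
    refine hpi p hp ?_
    rw [htop, Subgroup.card_top, Nat.card_perm, Nat.card_eq_fintype_card]
    exact hp.dvd_factorial.2 hpk
  by_cases h3 : 3 ∈ π
  · -- three-cycles
    obtain ⟨c, hc, hcc, hcs⟩ := hcyc 3 h3 Nat.prime_three (by norm_num) hk3
    have hA := alternatingGroup_le_of_isPreprimitive_of_isThreeCycle_mem hprim
      (card_support_eq_three_iff.1 hcs) hc
    rcases eq_or_ne p 2 with rfl | hp2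
    · exact h2π
    obtain ⟨d, hdc, hds⟩ := exists_cycle hp.two_le hpk
    refine hpi p hp ?_
    have hdA : d ∈ alternatingGroup Ω := by
      rw [mem_alt_iff, hdc.sign, hds, ((hp.eq_two_or_odd').resolve_left hp2).neg_one_pow, neg_neg]
    have := (hdc.orderOf.trans hds) ▸ Subgroup.orderOf_dvd_natCard (s := X) (hA hdA)
    exact this
  exfalso
  -- the odd primes of `π` are at least `k - 1`
  have hbd : ∀ t, t ∈ π → t.Prime → t ≠ 2 → t ≤ k → k ≤ t + 1 := by
    intro t ht htp ht2 htk
    by_contra hlt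
    obtain ⟨c, hc, hcc, hcs⟩ := hcyc t ht htp ht2 htk
    have hm := multi_of_cycle hprim hcc hc (hcs ▸ htp) (by omega)
    have := htp.two_le
    have := desc_dvd (j := 3) hm (by omega) (by omega)
    refine h3 (hpi 3 Nat.prime_three (Dvd.dvd.trans ?_ this))
    exact (show 3 ∣ Nat.factorial 3 by decide).trans (Nat.factorial_dvd_descFactorial k 3)
  obtain ⟨t, ht, htp, ht2, htk⟩ : ∃ t, t ∈ π ∧ t.Prime ∧ t ≠ 2 ∧ t ≤ k := by
    rcases eq_or_ne r 2 with rfl | hr2
    · exact ⟨s, hsπ, hs, hrs.symm, hsk⟩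
    · exact ⟨r, hrπ, hr, hr2, hrk⟩
  have ht5 : 5 ≤ t := by
    have := htp.two_le
    have : t ≠ 3 := fun e => h3 (e ▸ ht)
    have : t ≠ 4 := fun e => by subst e; norm_num at htp
    omega
  have huniq : ∀ q : ℕ, q.Prime → q ∣ Nat.card X → q = 2 ∨ q = t := by
    intro q hq hqd
    rcases eq_or_ne q 2 with h | hq2
    · exact Or.inl h
    right
    have hqk : q ≤ k := prime_le_of_dvd hq hqd
    have := hbd q (hpi q hq hqd) hq hq2 hqk
    have := hbd t ht htp ht2 htk
    obtain ⟨i, hi⟩ := (hq.eq_two_or_odd').resolve_left hq2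
    obtain ⟨j, hj⟩ := (htp.eq_two_or_odd').resolve_left ht2
    omega
  haveI : Group.IsSolvable X :=
    Cfsg.Agent.Lib.Char.isSolvable_of_card_eq_two_primes Nat.prime_two htp _ X rfl huniq
  have hfac : ∀ j : ℕ, 4 ≤ j → 2 ∣ (j - 2)! := fun j hj => Nat.dvd_factorial (by norm_num) (by omega)
  have h2X := hev.2 2 h2π Nat.prime_two
  rw [← hk] at h2X
  haveI := Fact.mk htp
  haveI hXt : IsPretransitive X Ω := hprim.toIsPretransitive
  have hcase : k = t ∨ k = t + 1 := by have := hbd t ht htp ht2 htk; omega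
  rcases hcase with hkt | hkt
  · have h1 := fact_le_of_dvd (Nat.mul_ne_zero htp.ne_zero (by omega))
      ((solvable_prime_degree (hk.symm.trans hkt) X).2 ht2 hev.1) 2
    have h2 : (t * (t - 1) * 2).factorization 2 ≤ (k !).factorization 2 := by
      refine fact_le_of_dvd (Nat.factorial_ne_zero _) ?_ 2
      obtain ⟨c, hc⟩ := hfac t (by omega)
      refine ⟨c, ?_⟩
      rw [hkt, ← Nat.mul_factorial_pred htp.ne_zero, ← Nat.mul_factorial_pred (show t - 1 ≠ 0 by omega),
        show t - 1 - 1 = t - 2 by omega, hc]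
      ring
    rw [fact_mul (a := t * (t - 1)) (Nat.mul_ne_zero htp.ne_zero (by omega)) two_ne_zero,
      Nat.Prime.factorization_self Nat.prime_two] at h2
    omega
  · -- the stabiliser of a point
    obtain ⟨c, hc, hcc, hcs⟩ := hcyc t ht htp ht2 htk
    obtain ⟨a, ha⟩ : ∃ a, a ∉ c.support := by
      refine ⟨_, (Classical.choose_spec (Finset.exists_mem_notMem_of_card_lt_card (s := c.support)
        (t := Finset.univ) ?_)).2⟩
      rw [hcs, Finset.card_univ, ← hk]; omega
    have hinv : ∀ g : stabilizer X a, ∀ x, (g.1.1 x ≠ a ↔ x ≠ a) := fun g x => by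
      have hga : g.1.1 a = a := g.2
      exact not_congr ⟨fun h => g.1.1.injective (h.trans hga.symm), fun h => h ▸ hga⟩
    let ψ : stabilizer X a →* Perm {x // x ≠ a} :=
      { toFun := fun g => g.1.1.subtypePerm (hinv g)
        map_one' := by ext; rfl
        map_mul' := fun g h => by ext; rfl }
    have hψ : Function.Injective ψ := by
      intro g h e
      refine Subtype.ext (Subtype.ext (Perm.ext fun x => ?_))
      rcases eq_or_ne x a with rfl | hx
      · exact g.2.trans h.2.symm
      · exact congrArg Subtype.val (Equiv.congr_fun e ⟨x, hx⟩)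
    let Y := ψ.range
    haveI : IsPretransitive Y {x // x ≠ a} := by
      obtain ⟨b, hb⟩ : c.support.Nonempty := Finset.card_pos.1 (by omega)
      have hca : (⟨c, hc⟩ : X) ∈ stabilizer X a := notMem_support.1 ha
      have hmem : ∀ x, x ≠ a → x ∈ c.support := fun x hx => by
        by_contra hxn
        have hsub : ({x, a} : Finset Ω) ⊆ c.supportᶜ := by
          intro z hz
          rcases Finset.mem_insert.1 hz with rfl | hz
          · exact Finset.mem_compl.2 hxn
          · rw [Finset.mem_singleton] at hz; subst hz; exact Finset.mem_compl.2 ha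
        have := Finset.card_le_card hsub
        rw [Finset.card_pair hx, Finset.card_compl, hcs, ← hk] at this
        omega
      refine ⟨fun x y => ?_⟩
      obtain ⟨i, hi⟩ := hcc.exists_zpow_eq (mem_support.1 (hmem _ x.2)) (mem_support.1 (hmem _ y.2))
      refine ⟨⟨ψ ((⟨⟨c, hc⟩, hca⟩ : stabilizer X a) ^ i), ⟨_, rfl⟩⟩, Subtype.ext ?_⟩
      show (((⟨⟨c, hc⟩, hca⟩ : stabilizer X a) ^ i : stabilizer X a).1.1) x.1 = y.1
      push_cast
      exact hi
    haveI : Group.IsSolvable Y := Group.isSolvable_of_surjective ψ.rangeRestrict_surjective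
    have hYA : Y ≤ alternatingGroup {x // x ≠ a} := by
      rintro _ ⟨g, rfl⟩
      rw [mem_alt_iff]
      show sign (g.1.1.subtypePerm (hinv g)) = 1
      refine (sign_subtypePerm (p := fun x => x ≠ a) g.1.1 (hinv g) fun x hx (e : x = a) => hx ?_).trans (hev.1 g.1.2)
      subst e
      exact g.2
    have hcard : Fintype.card {x // x ≠ a} = t := by
      rw [Fintype.card_subtype_compl, Fintype.card_subtype_eq, ← hk]; omega
    have h1 := (solvable_prime_degree hcard Y).2 ht2 hYA
    rw [← Nat.card_congr (MonoidHom.ofInjective hψ).toEquiv] at h1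
    have hX' : Nat.card X = k * Nat.card (stabilizer X a) := by
      rw [← Subgroup.index_mul_card (stabilizer X a), index_stabilizer_of_transitive,
        Nat.card_eq_fintype_card]
    have h3 : (2 * Nat.card X).factorization 2 ≤ (k * (t * (t - 1))).factorization 2 := by
      refine fact_le_of_dvd (Nat.mul_ne_zero (by omega) (Nat.mul_ne_zero htp.ne_zero (by omega))) ?_ 2
      rw [hX', mul_left_comm]
      exact Nat.mul_dvd_mul_left k h1
    have h2 : (k * (t * (t - 1)) * 2).factorization 2 ≤ (k !).factorization 2 := by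
      refine fact_le_of_dvd (Nat.factorial_ne_zero _) ?_ 2
      obtain ⟨c, hc⟩ := hfac t (by omega)
      refine ⟨c, ?_⟩
      rw [hkt, Nat.factorial_succ, ← Nat.mul_factorial_pred htp.ne_zero,
        ← Nat.mul_factorial_pred (show t - 1 ≠ 0 by omega), show t - 1 - 1 = t - 2 by omega, hc]
      ring
    rw [fact_mul (Nat.mul_ne_zero (by omega) (Nat.mul_ne_zero htp.ne_zero (by omega))) two_ne_zero,
      Nat.Prime.factorization_self Nat.prime_two] at h2
    omega

end Cfsg.Agent.Lib.HallSym
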