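import Cfsg.Agent.Lib.HallSym.Classes
import Mathlib.GroupTheory.Perm.ViaEmbedding

/-!
Existence of the exceptional Hall subgroups and the failure of the full Sylow analogue.
-/

set_option autoImplicit false

namespace Cfsg.Agent.Lib.HallSym

open Equiv Equiv.Perm MulAction
open scoped Nat

variable {n : ℕ} {π : Set ℕ}

theorem fact_factorial_of_gt {r m : ℕ} (hr : r.Prime) (h : m < r) : (m !).factorization r = 0 :=
  Nat.factorization_eq_zero_of_not_dvd fun hd => by have := hr.dvd_factorial.1 hd; omega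

theorem big_of_mul {m c : ℕ} {X : Subgroup (Perm (Fin m))} (hc : c ≠ 0) (hdvd : m ! ∣ Nat.card X * c)
    (h : ∀ r ∈ π, r.Prime → r ≤ m → ¬ r ∣ c) : Big π X := by
  intro r hr hrp
  rw [Fintype.card_fin]
  by_cases hrm : r ≤ m
  · have h1 := fact_le_of_dvd (Nat.mul_ne_zero Nat.card_pos.ne' hc) hdvd r
    rwa [fact_mul Nat.card_pos.ne' hc, Nat.factorization_eq_zero_of_not_dvd (h r hr hrp hrm), add_zero] at h1
  · rw [fact_factorial_of_gt hrp (by omega)]; exact Nat.zero_le _

theorem epi_point (hn : n.Prime) (hπ : ∀ r : ℕ, r.Prime → r ≤ n → (r ∈ π ↔ r < n)) :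
    Cfsg.IsEPiGroup π (Perm (Fin n)) := by
  have hU : Canon π (stabilizer (Perm (Fin n)) (⟨0, hn.pos⟩ : Fin n)) :=
    Or.inl ⟨by rwa [Fintype.card_fin], by rw [Fintype.card_fin]; exact hπ, _, rfl⟩
  refine ⟨_, hall_of_big (canon_pi hU) (big_of_mul hn.ne_zero ?_ fun r hr hrp hrn hd => ?_)⟩
  · have h := Subgroup.index_mul_card (stabilizer (Perm (Fin n)) (⟨0, hn.pos⟩ : Fin n))
    rw [index_stabilizer_of_transitive, Nat.card_eq_fintype_card, Fintype.card_fin, card_perm',
      Fintype.card_fin] at h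
    rw [← h, mul_comm]
  · rw [(Nat.prime_dvd_prime_iff_eq hrp hn).1 hd] at hr hrn
    have := (hπ n hn le_rfl).1 hr
    omega

theorem epi_seven (hπ : ∀ r : ℕ, r.Prime → r ≤ 7 → (r ∈ π ↔ r = 2 ∨ r = 3)) :
    Cfsg.IsEPiGroup π (Perm (Fin 7)) := by
  let D : Finset (Fin 7) := {0, 1, 2, 3}
  have hU : Canon π (fixFun fun x => decide (x ∈ D)) :=
    Or.inr (Or.inl ⟨Fintype.card_fin 7, by rw [Fintype.card_fin]; exact hπ, D, by decide, rfl⟩)
  refine ⟨_, hall_of_big (canon_pi hU) (big_of_mul (c := 35) (by norm_num) ?_ fun r hr hrp hrn hd => ?_)⟩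
  · rw [card_fixFun_bool, show D.card = 4 by decide, show Dᶜ.card = 3 by decide]
    decide
  · rcases (hπ r hrp hrn).1 hr with rfl | rfl <;> norm_num at hd

theorem epi_eight (hπ : ∀ r : ℕ, r.Prime → r ≤ 8 → (r ∈ π ↔ r = 2 ∨ r = 3)) :
    Cfsg.IsEPiGroup π (Perm (Fin 8)) := by
  let f : Fin 8 → Fin 2 := fun x => if x.val < 4 then 0 else 1
  have hf : ∀ i, Nat.card {x // f x = i} = 4 := fun i => by
    rw [Nat.card_eq_fintype_card]
    revert i; decide
  have hU : Canon π (PartitionStab.K f) :=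
    Or.inr (Or.inr ⟨Fintype.card_fin 8, by rw [Fintype.card_fin]; exact hπ, f, hf, rfl⟩)
  refine ⟨_, hall_of_big (canon_pi hU) (big_of_mul (c := 35) (by norm_num) ?_ fun r hr hrp hrn hd => ?_)⟩
  swap
  · rcases (hπ r hrp hrn).1 hr with rfl | rfl <;> norm_num at hd
  have hsurj : Function.Surjective f := by decide
  let e : Perm (Fin 8) := Equiv.addRight 4
  have he : e ∈ PartitionStab.K f := by
    show ∀ x y, f x = f y ↔ f (e x) = f (e y)
    decide
  let ψ := fibreHom hsurj
  have hrange : ψ.range = ⊤ := by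
    refine Subgroup.eq_top_of_le_card _ ?_
    rw [Nat.card_perm, Nat.card_eq_fintype_card, Fintype.card_fin]
    refine Nat.succ_le_of_lt (Subgroup.one_lt_card_iff_ne_bot _ |>.2 fun hb => ?_)
    have h1 : ψ ⟨e, he⟩ (f 0) = f 0 := by
      have : ψ ⟨e, he⟩ = 1 := Subgroup.mem_bot.1 (hb ▸ ⟨_, rfl⟩)
      rw [this]; rfl
    rw [fibreHom_apply] at h1
    change f (e 0) = f 0 at h1
    revert h1
    decide
  have hker : ψ.ker.map (PartitionStab.K f).subtype = fixFun f := by
    refine le_antisymm ?_ fun g hg => ?_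
    · rintro _ ⟨g, hg, rfl⟩ x
      exact (fibreHom_apply hsurj g x).symm.trans (Equiv.congr_fun hg (f x))
    · refine ⟨⟨g, fun x y => by rw [hg x, hg y]⟩, Equiv.ext fun i => ?_, rfl⟩
      obtain ⟨x, rfl⟩ := hsurj i
      exact (fibreHom_apply hsurj _ x).trans (hg x)
  have hkc : Nat.card ψ.ker = Nat.card (fixFun f) := by
    rw [← hker]; exact (Subgroup.card_map_of_injective (Subgroup.subtype_injective _)).symm
  rw [← Subgroup.card_mul_index ψ.ker, Subgroup.index_ker, hrange, Subgroup.card_top, Nat.card_perm,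
    hkc, card_fixFun,
    Fin.prod_univ_two, hf, hf, Nat.card_eq_fintype_card (α := Fin 2), Fintype.card_fin]
  decide

/-- The three pairs. -/
def pairs : Fin 6 → Fin 3 := fun x => ⟨x.val % 3, Nat.mod_lt _ (by norm_num)⟩

/-- A transitive `{2, 3}`-group of even permutations of six points. -/
theorem six_group : ∃ S : Subgroup (Perm (Fin 6)), S ≤ alternatingGroup (Fin 6) ∧
    (∀ p : ℕ, p.Prime → p ∣ Nat.card S → p = 2 ∨ p = 3) ∧ ∀ i : Fin 6, ∃ g ∈ S, g 0 = i := by
  refine ⟨PartitionStab.K pairs ⊓ alternatingGroup (Fin 6), inf_le_right, fun p hp hpd => ?_, ?_⟩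
  · have h := card_dvd_of_fibres (f := pairs) (by decide) (L := PartitionStab.K pairs) le_rfl (f' := pairs)
      (fun g _ hg => hg) (R := ⊤) fun g _ => Subgroup.mem_top _
    refine prime_two_three (m := 4) hp ((hpd.trans (Subgroup.card_dvd_of_le inf_le_left)).trans (h.trans ?_))
    rw [Subgroup.card_top, Nat.card_perm, Fin.prod_univ_three]
    simp only [Nat.card_eq_fintype_card, Fintype.card_fin]
    decide
  let x : Perm (Fin 6) := swap 0 1 * swap 1 2 * (swap 3 4 * swap 4 5)
  let y : Perm (Fin 6) := swap 0 3 * swap 1 4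
  have hx : x ∈ PartitionStab.K pairs ⊓ alternatingGroup (Fin 6) := by
    refine Subgroup.mem_inf.2 ⟨?_, ?_⟩
    · show ∀ a b, pairs a = pairs b ↔ pairs (x a) = pairs (x b)
      decide
    · rw [mem_alt_iff]; decide
  have hy : y ∈ PartitionStab.K pairs ⊓ alternatingGroup (Fin 6) := by
    refine Subgroup.mem_inf.2 ⟨?_, ?_⟩
    · show ∀ a b, pairs a = pairs b ↔ pairs (y a) = pairs (y b)
      decide
    · rw [mem_alt_iff]; decide
  intro i
  fin_cases i
  exacts [⟨1, one_mem _, rfl⟩, ⟨x, hx, by decide⟩, ⟨x * x, mul_mem hx hx, by decide⟩, ⟨y, hy, by decide⟩,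
    ⟨x * y, mul_mem hx hy, by decide⟩, ⟨x * (x * y), mul_mem hx (mul_mem hx hy), by decide⟩]

theorem not_maximal_witness (hn5 : 5 ≤ n) {U : Subgroup (Perm (Fin n))} (hU : Canon π U) :
    ∃ Y : Subgroup (Perm (Fin n)), Y ≤ alternatingGroup (Fin n) ∧ Cfsg.IsPiSubgroup π Y ∧
      ∀ g : Perm (Fin n), ∃ y ∈ Y, g * y * g⁻¹ ∉ U := by
  rcases hU with ⟨hn, hπ, a, rfl⟩ | hU
  · -- the stabiliser of a triple
    rw [Fintype.card_fin] at hn hπ
    obtain ⟨T, -, hT⟩ := Finset.exists_subset_card_eq (s := (Finset.univ : Finset (Fin n))) (n := 3)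
      (by simp; omega)
    refine ⟨fixFun (fun x => decide (x ∈ T)) ⊓ alternatingGroup (Fin n), inf_le_right, fun p hp hpd => ?_,
      fun g => ?_⟩
    · have h := hpd.trans (Subgroup.card_dvd_of_le inf_le_left)
      rw [card_fixFun_bool, hT, Finset.card_compl, hT, Fintype.card_fin, Nat.Prime.dvd_mul hp,
        hp.dvd_factorial, hp.dvd_factorial] at h
      exact (hπ p hp (by omega)).2 (by omega)
    · set x := g⁻¹ a with hx
      have key : ∀ (P : Finset (Fin n)), x ∈ P → 2 ≤ P.card → (∀ Q, Q = Pᶜ → 2 ≤ Q.card) →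
          ∃ x' u w, x ≠ x' ∧ x' ∈ P ∧ u ∉ P ∧ w ∉ P ∧ u ≠ w := by
        intro P hxP h2 hQ
        obtain ⟨x', hx', hne⟩ := Finset.exists_mem_ne (s := P) (by omega) x
        obtain ⟨u, hu, w, hw, huw⟩ := Finset.one_lt_card.1 (hQ _ rfl)
        exact ⟨x', u, w, hne.symm, hx', Finset.mem_compl.1 hu, Finset.mem_compl.1 hw, huw⟩
      obtain ⟨P, hxP, hP2, hPc, hiff⟩ : ∃ P : Finset (Fin n), x ∈ P ∧ 2 ≤ P.card ∧ 2 ≤ Pᶜ.card ∧
          ∀ u w, (u ∈ P ↔ w ∈ P) → (u ∈ T ↔ w ∈ T) := by
        by_cases hxT : x ∈ T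
        · exact ⟨T, hxT, by omega, by rw [Finset.card_compl, Fintype.card_fin]; omega, fun u w h => h⟩
        · exact ⟨Tᶜ, Finset.mem_compl.2 hxT, by rw [Finset.card_compl, Fintype.card_fin]; omega,
            by rw [compl_compl]; omega, fun u w h => by simpa [not_iff_not] using h⟩
      obtain ⟨x', u, w, hne, hx', hu, hw, huw⟩ := key P hxP hP2 fun Q hQ => hQ ▸ hPc
      refine ⟨swap x x' * swap u w, Subgroup.mem_inf.2 ⟨mul_mem ?_ ?_, ?_⟩, fun hmem => ?_⟩
      · exact swap_mem_fixFun _ (decide_eq_decide.2 (hiff _ _ (by simp [hxP, hx'])))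
      · exact swap_mem_fixFun _ (decide_eq_decide.2 (hiff _ _ (by simp [hu, hw])))
      · rw [mem_alt_iff, map_mul, sign_swap hne, sign_swap huw]; decide
      · rw [mem_stabilizer_iff, Perm.smul_def, Perm.mul_apply, Perm.mul_apply, Perm.mul_apply] at hmem
        rw [show g⁻¹ a = x from rfl, swap_apply_of_ne_of_ne (fun (e : x = u) => hu (e ▸ hxP)) (fun (e : x = w) => hw (e ▸ hxP)),
          swap_apply_left] at hmem
        exact hne.symm (g.injective (hmem.trans (by rw [hx]; simp)))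
  · -- seven or eight points
    have hπ : ∀ p : ℕ, p.Prime → p ≤ Fintype.card (Fin n) → (p ∈ π ↔ p = 2 ∨ p = 3) := by
      rcases hU with ⟨-, h, -⟩ | ⟨-, h, -⟩ <;> exact h
    have hn : n = 7 ∨ n = 8 := by
      rcases hU with ⟨h, -⟩ | ⟨h, -⟩ <;> rw [Fintype.card_fin] at h <;> omega
    obtain ⟨S, hSA, hSp, hStr⟩ := six_group
    let ι : Fin 6 ↪ Fin n := Fin.castLEEmb (by omega)
    refine ⟨S.map (viaEmbeddingHom ι), ?_, fun p hp hpd => ?_, fun g => ?_⟩
    · rintro _ ⟨s, hs, rfl⟩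
      rw [mem_alt_iff, viaEmbeddingHom_apply]
      classical
      convert (sign_extendDomain s (Equiv.ofInjective ι.1 ι.2)).trans (hSA hs)
      unfold viaEmbedding
      congr!
    · rw [Subgroup.card_map_of_injective (viaEmbeddingHom_injective ι)] at hpd
      exact (hπ p hp (by rw [Fintype.card_fin]; rcases hSp p hp hpd with rfl | rfl <;> omega)).2 (hSp p hp hpd)
    by_contra hall
    push Not at hall
    have hmove : ∀ i : Fin 6, ∃ h ∈ U, h (g (ι 0)) = g (ι i) ∧
        ∀ z, z ∉ Set.range ι → h (g z) = g z := by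
      intro i
      obtain ⟨s, hs, hsi⟩ := hStr i
      refine ⟨_, hall _ ⟨s, hs, rfl⟩, ?_, fun z hz => ?_⟩
      · simp [viaEmbeddingHom_apply, viaEmbedding_apply, hsi]
      · simp [viaEmbeddingHom_apply, viaEmbedding_apply_of_notMem _ _ _ hz]
    let A : Finset (Fin n) := Finset.univ.image fun i => g (ι i)
    have hA : A.card = 6 := by
      rw [Finset.card_image_of_injective (f := fun i => g (ι i)) _ (g.injective.comp ι.injective)]; simp
    obtain ⟨z, hz⟩ : ∃ z, z ∉ Set.range ι := ⟨⟨6, by omega⟩, by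
      rintro ⟨i, hi⟩
      have := congrArg Fin.val hi
      simp [ι] at this
      omega⟩
    rcases hU with ⟨h7, -, D, hD, rfl⟩ | ⟨h8, -, f, hf, rfl⟩
    · have hsame : ∀ i, (g (ι i) ∈ D ↔ g (ι 0) ∈ D) := fun i => by
        obtain ⟨h, hh, e, -⟩ := hmove i
        rw [← e]; exact decide_eq_decide.1 (hh _)
      by_cases h0 : g (ι 0) ∈ D
      · have : A ⊆ D := Finset.image_subset_iff.2 fun i _ => (hsame i).2 h0
        have := Finset.card_le_card this
        omega
      · have : A ⊆ Dᶜ := Finset.image_subset_iff.2 fun i _ => Finset.mem_compl.2 fun hi => h0 ((hsame i).1 hi)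
        have := Finset.card_le_card this
        rw [Finset.card_compl, hD, h7] at this
        omega
    · let B := Finset.univ.filter fun v => f v = f (g z)
      have hB : B.card = 4 := by rw [← hf (f (g z)), Nat.card_eq_fintype_card, Fintype.card_subtype]
      have hsame : ∀ i, (g (ι i) ∈ B ↔ g (ι 0) ∈ B) := fun i => by
        obtain ⟨h, hh, e, hfix⟩ := hmove i
        have := hh (g (ι 0)) (g z)
        rw [hfix z hz, e] at this
        simp only [B, Finset.mem_filter, Finset.mem_univ, true_and]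
        exact this.symm
      by_cases h0 : g (ι 0) ∈ B
      · have : A ⊆ B := Finset.image_subset_iff.2 fun i _ => (hsame i).2 h0
        have := Finset.card_le_card this
        omega
      · have : A ⊆ Bᶜ := Finset.image_subset_iff.2 fun i _ => Finset.mem_compl.2 fun hi => h0 ((hsame i).1 hi)
        have := Finset.card_le_card this
        rw [Finset.card_compl, hB, h8] at this
        omega

end Cfsg.Agent.Lib.HallSym
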